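import Cfsg.Agent.R3.Mdl
import Cfsg.Agent.Comp.SimM

/-! Upper bounds for the automorphism group of a rank 3 graph (helper22): `card_autS_le` (two point stabiliser),
`card_le_simL`, `card_le_cell` (refinement inside an invariant cell), `fix_of_cellM`, `le_of_stab_card`. -/

set_option autoImplicit false

namespace Cfsg.Agent.R3

open MulAction Equiv Cfsg.Agent.Comp Cfsg.Agent.Perm Cfsg.Agent.Known

/-- automorphisms fixing two vertices. -/
abbrev aut2 {X : Type*} (Δ : SimpleGraph X) (a c : X) : Subgroup (Perm X) :=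
  autS Δ ⊓ stabilizer (Perm X) a ⊓ stabilizer (Perm X) c

theorem Loc.inv_aut {H X : Type*} [Group H] [MulAction H X] {Δ : SimpleGraph X} {a b c : X} (L : Loc H Δ a b c) :
    Inv (autS Δ ⊓ stabilizer (Perm X) a) (orbit H b) ∧ Inv (autS Δ ⊓ stabilizer (Perm X) a) (orbit H c) := by
  have e : ∀ g ∈ autS Δ ⊓ stabilizer (Perm X) a, ∀ x, Δ.Adj a (g • x) ↔ Δ.Adj a x := fun g hg x => by
    rw [← hg.1 a x, show g a = a from hg.2]; rfl
  exact ⟨fun g hg x hx => L.mem_b.2 ((e g hg x).2 (L.mem_b.1 hx)), fun g hg x hx => L.mem_c.2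
    ⟨fun h => (L.mem_c.1 hx).1 (g.injective (hg.2.trans h)), mt (e g hg x).1 (L.mem_c.1 hx).2⟩⟩

theorem card_autS_le {X : Type*} [Finite X] {Δ : SimpleGraph X} {a c : X} {U : Set X} {n j N : ℕ} (hn : Nat.card X = n)
    (hU : Inv (autS Δ ⊓ stabilizer (Perm X) a) U) (hc : c ∈ U) (hj : U.ncard = j) (h : Nat.card (aut2 Δ a c) ≤ N) :
    Nat.card (autS Δ) ≤ n * (j * N) := by
  have h1 := card_le_of_inv (K := autS Δ) Set.finite_univ (fun _ _ _ _ => trivial) (Set.mem_univ a)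
  rw [Set.ncard_univ, hn] at h1
  exact h1.trans (Nat.mul_le_mul_left n ((card_le_of_inv (Set.toFinite U) hU hc).trans (hj ▸ Nat.mul_le_mul_left _ h)))

/-- the points that the masks do not separate from `p`. -/
def cellM (full : ℕ) (ms : List ℕ) (p : ℕ) : ℕ :=
  List.rec (motive := fun _ => ℕ) full (fun a _ ih => Nat.land (bif' (tb a p) a (Nat.xor full a)) ih) ms

/-- number of points of a list that pass the program. -/
def cntL (n : ℕ) (A : ℕ → ℕ → ℕ) (full : ℕ) (prog : List InM) (p : ℕ → ℕ) (ps : List ℕ) : ℕ :=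
  List.rec (motive := fun _ => ℕ) 0 (fun c _ ih =>
    bif' (Nat.beq (runM n A full prog (fun _ => 1) (consF (idA c) p)) 0) ih (Nat.succ ih)) ps

/-- `simM` inside an invariant list of points. -/
def simL (n : ℕ) (A : ℕ → ℕ → ℕ) (full : ℕ) (ps B : List ℕ) (r : ℕ) (lev : List (ℕ × List InM)) : (ℕ → ℕ) → ℕ :=
  List.rec (motive := fun _ => (ℕ → ℕ) → ℕ) (fun p => force (ptsM r p) fun s => bif' (allL B (tb s)) 1 0)
    (fun s _ ih p => bif' (band (Nat.blt s.1 n) (memL s.1 ps))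
      (runM n A full s.2 (fun q => Nat.mul (cntL n A full s.2 p ps) (ih q)) (consF (idA s.1) p)) 0) lev

section enc

variable {α : Type*} {n : ℕ} {E : Enc α n} {G : Type*} [Group G] [MulAction G α] {A : ℕ → ℕ → ℕ}

theorem fix_of_cellM {g : G} {ms : List ℕ} (h : ∀ a ∈ ms, ∀ z, a.testBit (E.enc z) = a.testBit (E.enc (g • z)))
    (h1 : allLt n (fun p => Nat.beq (cellM (2 ^ n - 1) ms p) (idA p)) = true) (z : α) : g • z = z := by
  have : (cellM (2 ^ n - 1) ms (E.enc z)).testBit (E.enc (g • z)) = true := by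
    clear h1
    induction ms with
    | nil => simp [cellM, E.enc_lt]
    | cons a l ih =>
      change (bif' (tb a _) a ((2 ^ n - 1) ^^^ a) &&& cellM (2 ^ n - 1) l _).testBit _ = true
      rw [Nat.testBit_and, ih fun b hb => h b (by simp [hb]), bif'_eq, tb_eq, h a (by simp)]
      split_ifs with e <;> simp [e, E.enc_lt]
  rw [nbeq.1 (allLt_iff.1 h1 _ (E.enc_lt z)), testBit_idA, decide_eq_true_eq] at this
  exact (E.enc_injective this).symm

theorem ncard_le_cntL {prog : List InM} {f : ℕ} {p : ℕ → ℕ} (ps : List ℕ) : ∀ U : Set α, (∀ x ∈ U, E.enc x ∈ ps ∧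
    runM n A f prog (fun _ => 1) (consF (idA (E.enc x)) p) ≠ 0) → U.ncard ≤ cntL n A f prog p ps := by
  have := E.finite
  induction ps with
  | nil => exact fun U h => by rw [Set.eq_empty_of_forall_notMem fun x hx => List.not_mem_nil (h x hx).1]; simp
  | cons c l ih =>
    intro U h
    change _ ≤ bif' _ (cntL n A f prog p l) (cntL n A f prog p l + 1)
    rw [bif'_eq]
    split_ifs with e
    · exact ih U fun x hx => ⟨(List.mem_cons.1 (h x hx).1).resolve_left fun e' => (h x hx).2 (e' ▸ nbeq.1 e), (h x hx).2⟩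
    · exact (Set.ncard_le_ncard_sdiff_add_ncard U {E.dec c}).trans (Nat.add_le_add (ih _ fun x hx =>
        ⟨(List.mem_cons.1 (h x hx.1).1).resolve_left fun e' => hx.2 (by rw [← e', E.dec_enc]; rfl), (h x hx.1).2⟩) (by simp))

theorem card_le_simL {B ps : List ℕ} (hB : ∀ g : G, (∀ x, E.enc x ∈ B → g • x = x) → g = 1) {r : ℕ}
    (hU : ∀ (g : G) x, E.enc x ∈ ps → E.enc (g • x) ∈ ps) (hA : ∀ g : G, GMap E A A g) (lev : List (ℕ × List InM)) :
    ∀ (K : Subgroup G) p, (∀ g ∈ K, ∀ k, RelM E g (p k) (p k)) → simL n A (2 ^ n - 1) ps B r lev p ≠ 0 →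
    Nat.card K ≤ simL n A (2 ^ n - 1) ps B r lev p := by
  induction lev with
  | nil => exact fun K p hp h => card_le_simM' hB (r := r) [] K p (fun g _ => hA g) hp h
  | cons s lev ih =>
    intro K p hp h
    change bif' _ (runM _ _ _ _ (fun q => _ * simL n A (2 ^ n - 1) ps B r lev q) _) 0 ≠ 0 at h
    change _ ≤ bif' _ (runM _ _ _ _ (fun q => _ * simL n A (2 ^ n - 1) ps B r lev q) _) 0
    rw [bif'_eq] at h ⊢
    split_ifs at h ⊢ with t
    swap
    · exact absurd rfl h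
    rw [band_eq, Bool.and_eq_true, nblt, memL_iff] at t
    have t2 : E.enc (E.dec s.1) ∈ ps := (E.enc_dec _ t.1).symm ▸ t.2
    rw [← E.enc_dec _ t.1] at h ⊢
    obtain ⟨p', -, -, e, -⟩ := runM_map (hA 1) _ _ _ _ (relM_cons (hp 1 K.one_mem) (relM_pt 1 _)) h
    rw [card_eq_ncard_orbit_mul K (E.dec s.1), e]
    refine Nat.mul_le_mul (ncard_le_cntL (E := E) ps _ ?_) (ih _ _ (fun g hg => ?_) (right_ne_zero_of_mul (e _ ▸ h)))
    · rintro _ ⟨g, rfl⟩
      obtain ⟨_, _, -, -, e⟩ := runM_map (hA g) _ _ _ _ (relM_cons (hp g g.2) (relM_pt g.1 _)) h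
      exact ⟨hU g _ t2, (e _).trans_ne one_ne_zero⟩
    obtain ⟨p1, q1, h2, e1, e2⟩ := runM_map (hA g) _ _ _ _ (relM_cons (hp g hg.1) (relM_pt g _)) h
    rw [mem_stabilizer_iff.1 hg.2] at e2
    obtain rfl : p1 = p' := funext fun i => (e1 fun p => p i).symm.trans (e _)
    obtain rfl : q1 = p1 := funext fun i => (e2 fun p => p i).symm.trans (e _)
    exact h2

theorem card_le_cell {Δ : SimpleGraph α} {A : Subgroup (Perm α)} (hA : A ≤ autS Δ) {l lB : List (ℕ × List ℕ)} {l₀ : List ℕ}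
    {F : ℕ × List ℕ → ℕ} (hF : ∀ z ∈ l, IsNb E Δ z.1 (F z)) (hB : ∀ z ∈ lB, IsNb E Δ z.1 (F z))
    (h0 : ∀ z ∈ l₀, A ≤ stabilizer (Perm α) (E.dec z)) (hU : Inv A (St E (maskL (mapL Prod.fst l))))
    (h1 : forceL (mapL idA l₀ ++ mapL F lB) (fun ms => band (band (allL l₀ fun z => Nat.blt z n) (allL lB fun z => Nat.blt z.1 n))
      (force (Nat.pred (Nat.pow 2 n)) fun f => allLt n fun p => Nat.beq (cellM f ms p) (idA p))) = true) (r : ℕ)
    (lev : List (ℕ × List InM)) {N : ℕ} (hN : N ≠ 0)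
    (h2 : forceL (mapL Prod.fst l) (fun ps => forceL (mapL F l) fun ms => force (Nat.pred (Nat.pow 2 n)) fun f =>
      force (Nat.land (maskL ps) f) fun u => Nat.beq (simL n (famA [idA, fun p => lk (fun _ => 0) p ps ms]) f ps
        (mapL Prod.fst lB) r lev fun _ => u) N) = true) : Nat.card A ≤ N := by
  rw [forceL_eq, forceL_eq, force_eq, force_eq, nbeq] at h2
  simp only [forceL_eq, force_eq, band_eq, Bool.and_eq_true, allL_iff, nblt] at h1
  have hu : ∀ (g : A) x, x ∈ St E (maskL (mapL Prod.fst l)) ↔ g • x ∈ St E (maskL (mapL Prod.fst l)) := fun g x =>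
    ⟨hU g g.2 x, fun h => inv_smul_smul g.1 x ▸ hU _ (inv_mem g.2) _ h⟩
  have hu' := fun g x => (testBit_maskL _).symm.trans ((hu g x).trans (testBit_maskL _))
  refine Subgroup.card_top.symm.trans_le ((card_le_simL (E := E) (G := A) (fun g hg => Subtype.ext (Equiv.ext
    (fix_of_cellM (E := E) (g := g) (fun a ha => ?_) h1.2))) (fun g x => (hu' g x).1) (fun g =>
      .cons gmap_idA (.cons (gmap_lk hF (hA g.2) (hu' g)) gmap_nil)) lev ⊤ _ (fun g _ _ => RelM.and (fun y =>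
        Bool.eq_iff_iff.2 (hu g y)) (relM_full g)) (h2.trans_ne hN)).trans_eq h2)
  simp only [mapL_eq, List.mem_append, List.mem_map] at ha hg
  obtain ⟨z, hz, rfl⟩ | ⟨z, hz, rfl⟩ := ha
  · exact E.enc_dec z (h1.1.1 z hz) ▸ gmap_fix (g := g) (h0 z hz g.2) (E.dec z)
  · exact (hB z hz).map (hB z hz) (hA g.2) (hg _ ⟨z, hz, (E.enc_dec _ (h1.1.2 z hz)).symm⟩)

theorem eq_of_fix {w m b s : ℕ} {K : Subgroup G} {L : List ℕ} (hK : CodesIn (PRep E w m) L K) (h : forceL L (fun L =>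
    allLt n fun p => bor (Nat.beq p b) (bor (not (tb s p)) (anyL L fun c => not (Nat.beq (get w m c p) p)))) = true) :
    ∀ y ∈ St E s, (∀ g ∈ K, g • y = y) → y = E.dec b := fun y hy hf => by
  have := allLt_iff.1 ((forceL_eq _ _).symm.trans h) _ (E.enc_lt y)
  simp only [bor_eq, Bool.or_eq_true, nbeq, Bool.not_eq_true', tb_eq, anyL_iff, nbeq_false] at this
  rcases this with e | e | ⟨c, hc, e⟩
  · rw [← e, E.dec_enc]
  · exact absurd (e.symm.trans hy) (by decide)
  · obtain ⟨g, hg, r⟩ := hK c hc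
    exact absurd ((r y).trans (by rw [hf g hg])) e

end enc

theorem Loc.center {G X : Type*} [Group G] [MulAction G X] [FaithfulSMul G X] {H : Subgroup G} {Δ : SimpleGraph X}
    {a b c : X} (L : Loc H Δ a b c) (hb : ∀ y ∈ orbit H b, (∀ g ∈ H ⊓ stabilizer G b, g • y = y) → y = b)
    (hc : ∀ y ∈ orbit H c, (∀ g ∈ H ⊓ stabilizer G c, g • y = y) → y = c) {z : H} (hz : z ∈ Subgroup.center H) : z = 1 := by
  have key : ∀ x : X, (∀ y ∈ orbit H x, (∀ g ∈ H ⊓ stabilizer G x, g • y = y) → y = x) → ∀ g : H, z • g • x = g • x :=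
    fun x hx g => by
      rw [← mul_smul, ← Subgroup.mem_center_iff.1 hz, mul_smul, hx (z • x) ⟨z, rfl⟩ fun k hk => ?_]
      change (⟨k, hk.1⟩ : H) • z • x = _
      rw [← mul_smul, Subgroup.mem_center_iff.1 hz, mul_smul]
      exact congrArg _ hk.2
  refine eq_of_smul_eq_smul fun x : X => (one_smul H x).symm ▸ ?_
  rcases L.cov x with rfl | ⟨g, rfl⟩ | ⟨g, rfl⟩
  exacts [L.fix z, key b hb g, key c hc g]

theorem le_of_stab_card {G X : Type*} [Group G] [Finite G] [MulAction G X] {H K : Subgroup G} {x : X} {j N : ℕ}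
    (hK : K ≤ H) (hj : (orbit H x).ncard = j) (hN : Nat.card H = N) (h : Nat.card K * j = N) (g : G) (hg : g ∈ H)
    (h1 : K ≤ stabilizer G (g • x)) : H ⊓ stabilizer G (g • x) ≤ K := by
  have e := card_eq_ncard_orbit_mul H (g • x)
  rw [show orbit H (g • x) = orbit H x from orbit_eq_iff.2 ⟨⟨g, hg⟩, rfl⟩, hj, hN, ← h, mul_comm] at e
  have h0 : 0 < j := Nat.pos_of_ne_zero fun h0 => Nat.card_pos.ne' (hN.trans (by rw [← h, h0, mul_zero]))
  exact (Subgroup.eq_of_le_of_card_ge (le_inf hK h1) (Nat.eq_of_mul_eq_mul_left h0 e).ge).ge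

end Cfsg.Agent.R3
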