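import Cfsg.Agent.Perm.HSGraph
import Cfsg.Agent.Comp.Lab

/-! Recognition of rank 3 groups from the point stabiliser (helper22). `Loc H Γ a b c` (a group fixing the vertex `a`
with two further orbits), `Loc.iso` (two such graphs with the same stabilisers and adjacencies are isomorphic),
`rank3` (the orbital graph), `iso_of_rank3` (from classifications of subgroups and invariant sets), `autS`,
`equiv_of_aut` (the index two argument), `equiv_of_rank3`. -/

set_option autoImplicit false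

namespace Cfsg.Agent.R3

open MulAction Equiv Cfsg.Agent.Comp Cfsg.Agent.Perm

variable {H Ω X : Type*} [Group H]

/-- `H` preserves `Γ`, fixes `a`, and is transitive on the neighbours and on the non-neighbours of `a`. -/
structure Loc (H : Type*) {Ω : Type*} [Group H] [MulAction H Ω] (Γ : SimpleGraph Ω) (a b c : Ω) : Prop where
  inv : ∀ (g : H) u v, Γ.Adj (g • u) (g • v) ↔ Γ.Adj u v
  fix : ∀ g : H, g • a = a
  cov : ∀ w, w = a ∨ (∃ g : H, g • b = w) ∨ ∃ g : H, g • c = w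
  ab : Γ.Adj a b
  ac : ¬ Γ.Adj a c
  ne : a ≠ c

section loc

variable [MulAction H Ω] [MulAction H X] {Γ : SimpleGraph Ω} {Δ : SimpleGraph X} {a b c : Ω} {x₀ x₁ x₂ : X}

theorem Loc.adj_b (L : Loc H Γ a b c) (g : H) : Γ.Adj a (g • b) := by
  rw [← L.fix g, L.inv]; exact L.ab

theorem Loc.adj_c (L : Loc H Γ a b c) (g : H) : ¬ Γ.Adj a (g • c) := by
  rw [← L.fix g, L.inv]; exact L.ac

theorem Loc.ne_c (L : Loc H Γ a b c) (g : H) : a ≠ g • c := fun e =>
  L.ne (by rw [← L.fix g⁻¹, e, inv_smul_smul])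

theorem Loc.mem_b (L : Loc H Γ a b c) {w : Ω} : w ∈ orbit H b ↔ Γ.Adj a w := by
  refine ⟨by rintro ⟨g, rfl⟩; exact L.adj_b g, fun h => ?_⟩
  rcases L.cov w with rfl | h' | ⟨g, rfl⟩
  exacts [absurd h Γ.irrefl, h', absurd h (L.adj_c g)]

theorem Loc.mem_c (L : Loc H Γ a b c) {w : Ω} : w ∈ orbit H c ↔ a ≠ w ∧ ¬ Γ.Adj a w := by
  refine ⟨by rintro ⟨g, rfl⟩; exact ⟨L.ne_c g, L.adj_c g⟩, fun h => ?_⟩
  rcases L.cov w with rfl | ⟨g, rfl⟩ | h'
  exacts [absurd rfl h.1, absurd (L.adj_b g) h.2, h']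

theorem Loc.eq_iff (L : Loc H Γ a b c) (i j : Fin 3) (g : H) :
    ![a, b, c] i = g • ![a, b, c] j ↔ i = j ∧ g ∈ stabilizer H (![a, b, c] i) := by
  refine ⟨fun e => ?_, by rintro ⟨rfl, e⟩; exact e.symm⟩
  suffices i = j by subst this; exact ⟨rfl, e.symm⟩
  have h1 := L.adj_b g
  have h2 := L.adj_c g
  have h3 := L.ne_c g
  have h4 := L.fix g
  have h5 := L.ab
  have h6 := L.ac
  have h7 := L.ne
  fin_cases i <;> fin_cases j <;> simp at e ⊢ <;> simp_all

theorem Loc.iso (L : Loc H Γ a b c) (L' : Loc H Δ x₀ x₁ x₂) (hb : stabilizer H b = stabilizer H x₁)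
    (hc : stabilizer H c = stabilizer H x₂) (bb : ∀ g : H, Γ.Adj b (g • b) ↔ Δ.Adj x₁ (g • x₁))
    (cb : ∀ g : H, Γ.Adj c (g • b) ↔ Δ.Adj x₂ (g • x₁)) (cc : ∀ g : H, Γ.Adj c (g • c) ↔ Δ.Adj x₂ (g • x₂)) :
    Nonempty (Γ ≃g Δ) := by
  let f : Fin 3 × H → Ω := fun z => z.2 • ![a, b, c] z.1
  let f' : Fin 3 × H → X := fun z => z.2 • ![x₀, x₁, x₂] z.1
  have s : f.Surjective := fun w => by
    rcases L.cov w with rfl | ⟨g, rfl⟩ | ⟨g, rfl⟩
    exacts [⟨(0, 1), one_smul _ _⟩, ⟨(1, g), rfl⟩, ⟨(2, g), rfl⟩]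
  have s' : f'.Surjective := fun w => by
    rcases L'.cov w with rfl | ⟨g, rfl⟩ | ⟨g, rfl⟩
    exacts [⟨(0, 1), one_smul _ _⟩, ⟨(1, g), rfl⟩, ⟨(2, g), rfl⟩]
  have e : ∀ y z, f y = f z ↔ f' y = f' z := fun y z => by
    simp only [f, f', smul_eq_iff_eq_inv_smul, ← mul_smul, L.eq_iff, L'.eq_iff]
    refine and_congr_right fun _ => ?_
    generalize y.1 = i
    fin_cases i
    · simp [L.fix, L'.fix]
    · exact hb ▸ Iff.rfl
    · exact hc ▸ Iff.rfl
  have A : ∀ (i j : Fin 3) (g : H), Γ.Adj (![a, b, c] i) (g • ![a, b, c] j) ↔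
      Δ.Adj (![x₀, x₁, x₂] i) (g • ![x₀, x₁, x₂] j) := fun i j g => by
    have h1 := L.adj_b g
    have h2 := L.adj_c g
    have h1' := L'.adj_b g
    have h2' := L'.adj_c g
    have h3 := cb g⁻¹
    rw [← L.inv g, ← L'.inv g, smul_inv_smul, smul_inv_smul, Γ.adj_comm, Δ.adj_comm] at h3
    fin_cases i <;> fin_cases j <;>
      simp [L.fix, L'.fix, h1, h2, h1', h2', h3, bb, cb, cc, L.ab.symm, L'.ab.symm, mt SimpleGraph.Adj.symm L.ac,
        mt SimpleGraph.Adj.symm L'.ac]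
  have hβ : ∀ z, f' (Function.surjInv s (f z)) = f' z := fun z => (e _ _).1 (Function.surjInv_eq s _)
  refine ⟨⟨Equiv.ofBijective (fun w => f' (Function.surjInv s w)) ⟨fun u v h => ?_, fun x => ?_⟩, fun {u v} => ?_⟩⟩
  · obtain ⟨u, rfl⟩ := s u
    obtain ⟨v, rfl⟩ := s v
    exact (e _ _).2 ((hβ u).symm.trans (h.trans (hβ v)))
  · obtain ⟨z, rfl⟩ := s' x
    exact ⟨f z, hβ z⟩
  · obtain ⟨u, rfl⟩ := s u
    obtain ⟨v, rfl⟩ := s v
    change Δ.Adj (f' (Function.surjInv s (f u))) (f' (Function.surjInv s (f v))) ↔ _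
    rw [hβ, hβ, ← L.inv u.2⁻¹, ← L'.inv u.2⁻¹]
    simp only [f, f', inv_smul_smul, ← mul_smul, A, inv_mul_cancel, one_smul]

/-- transfer of a set along the identification of two orbits. -/
def tr (H : Type*) {Ω X : Type*} [Group H] [MulAction H Ω] [MulAction H X] (b : Ω) (x : X) (P : Ω → Prop) : Set X :=
  {y | ∃ g : H, g • x = y ∧ P (g • b)}

theorem tr_sub {P : Ω → Prop} : tr H b x₁ P ⊆ orbit H x₁ := fun _ ⟨g, h, _⟩ => ⟨g, h⟩

theorem smul_eq_tr (h : stabilizer H b = stabilizer H x₁) (g k : H) : g • b = k • b ↔ g • x₁ = k • x₁ := by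
  rw [← inv_smul_eq_iff, ← inv_smul_eq_iff, ← mul_smul, ← mul_smul, ← mem_stabilizer_iff, h, mem_stabilizer_iff]

theorem mem_tr (h : stabilizer H b = stabilizer H x₁) {P : Ω → Prop} (g : H) : g • x₁ ∈ tr H b x₁ P ↔ P (g • b) :=
  ⟨fun ⟨k, e, hk⟩ => (smul_eq_tr h k g).2 e ▸ hk, fun e => ⟨g, rfl, e⟩⟩

theorem ncard_tr (h : stabilizer H b = stabilizer H x₁) {P Q : Ω → Prop} (hQ : ∀ w, Q w ↔ w ∈ orbit H b ∧ P w) :
    (tr H b x₁ P).ncard = {w | Q w}.ncard := by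
  refine Set.ncard_congr (fun _ hy => hy.choose • b) (fun _ hy => (hQ _).2 ⟨⟨_, rfl⟩, hy.choose_spec.2⟩)
    (fun _ _ hy hz e => hy.choose_spec.1.symm.trans (((smul_eq_tr h _ _).1 e).trans hz.choose_spec.1)) fun w hw => ?_
  obtain ⟨⟨g, rfl⟩, hw⟩ := (hQ w).1 hw
  have hy : g • x₁ ∈ tr H b x₁ P := ⟨g, rfl, hw⟩
  exact ⟨_, hy, (smul_eq_tr h _ _).2 hy.choose_spec.1⟩

theorem Loc.inv_tr (L : Loc H Γ a b c) {u v : Ω} {x : X} : Inv (stabilizer H u) (tr H v x (Γ.Adj u)) := by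
  rintro g hg _ ⟨k, rfl, hk⟩
  exact ⟨g * k, mul_smul _ _ _, by rwa [mul_smul, ← mem_stabilizer_iff.1 hg, L.inv]⟩

theorem Loc.not_mem_tr (_ : Loc H Γ a b c) {u : Ω} {x : X} (h : stabilizer H u = stabilizer H x) :
    x ∉ tr H u x (Γ.Adj u) := fun e => by
  have := (mem_tr h (P := Γ.Adj u) 1).1 (by rwa [one_smul])
  rw [one_smul] at this
  exact Γ.irrefl this

theorem Loc.twist (L : Loc H Γ a b c) {H' : Type*} [Group H'] (ρ : H' →* H) (hρ : Function.Surjective ρ) (u : H) :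
    letI := MulAction.compHom Ω ρ; Loc H' Γ a (u • b) c := by
  let := MulAction.compHom Ω ρ
  refine ⟨fun g => L.inv (ρ g), fun g => L.fix (ρ g), fun w => ?_, L.adj_b u, L.ac, L.ne⟩
  rcases L.cov w with h | ⟨g, rfl⟩ | ⟨g, rfl⟩
  · exact Or.inl h
  · obtain ⟨k, hk⟩ := hρ (g * u⁻¹)
    exact Or.inr (Or.inl ⟨k, show ρ k • u • b = _ by rw [hk, mul_smul, inv_smul_smul]⟩)
  · obtain ⟨k, rfl⟩ := hρ g
    exact Or.inr (Or.inr ⟨k, rfl⟩)

variable [Finite Ω] {n k l m : ℕ}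

theorem Loc.ncard_cc (L : Loc H Γ a b c) (hS : Srg Γ n k l m) (hc : stabilizer H c = stabilizer H x₂) :
    (tr H c x₂ (Γ.Adj c)).ncard = k - m := by
  rw [ncard_tr hc (Q := fun w => w ∈ {w | Γ.Adj c w} \ {w | Γ.Adj a w ∧ Γ.Adj c w}) fun w => by
    rw [L.mem_c]
    exact ⟨fun h => ⟨⟨fun e => L.ac (e ▸ h.1).symm, fun e => h.2 ⟨e, h.1⟩⟩, h.1⟩, fun h => ⟨h.2, fun e => h.1.2 e.1⟩⟩,
    Set.ofPred_mem_eq, Set.ncard_sdiff fun _ h => h.2, hS.reg, hS.nadj a c L.ne L.ac]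

end loc

/-- the orbital graph of a rank 3 group. -/
theorem rank3 {G : Type*} [Group G] [MulAction G Ω] [Finite G] [Finite Ω] [IsPretransitive G Ω]
    {a b c : Ω} {k j : ℕ} (hΩ : Nat.card Ω = 1 + k + j) (hk : k ≠ 1) (hj : j ≠ 1) (hkj : k ≠ j) (hkj' : k < j)
    (hb : (orbit (stabilizer G a) b).ncard = k) (hc : (orbit (stabilizer G a) c).ncard = j) :
    ∃ (Γ : SimpleGraph Ω) (l m : ℕ), Srg Γ (1 + k + j) k l m ∧ (∀ (g : G) x y, Γ.Adj (g • x) (g • y) ↔ Γ.Adj x y) ∧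
      Loc (stabilizer G a) Γ a b c := by
  obtain ⟨Γ, l, m, hS, hi⟩ := HS.rank3_srg hΩ hk hj hkj hb hc
  have h1 : orbit (stabilizer G a) a = {a} :=
    Set.eq_singleton_iff_unique_mem.2 ⟨mem_orbit_self a, by rintro _ ⟨g, rfl⟩; exact g.2⟩
  have hd : ∀ {x y : Ω}, (orbit (stabilizer G a) x).ncard ≠ (orbit (stabilizer G a) y).ncard →
      Disjoint (orbit (stabilizer G a) x) (orbit (stabilizer G a) y) := fun h =>
    (orbit.eq_or_disjoint _ _).resolve_left fun e => h (by rw [e])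
  have d1 := @hd a b (by rw [h1, hb, Set.ncard_singleton]; exact hk.symm)
  have d2 := @hd a c (by rw [h1, hc, Set.ncard_singleton]; exact hj.symm)
  have d3 := @hd b c (by rwa [hb, hc])
  have cov : ∀ x, x ∈ orbit (stabilizer G a) a ∪ orbit (stabilizer G a) b ∪ orbit (stabilizer G a) c :=
    Set.eq_univ_iff_forall.1 (Set.eq_of_subset_of_ncard_le (Set.subset_univ _) (by
      rw [Set.ncard_union_eq (Set.disjoint_union_left.2 ⟨d2, d3⟩), Set.ncard_union_eq d1, h1, hb, hc,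
        Set.ncard_univ, hΩ, Set.ncard_singleton]))
  have hs : ∀ x, Γ.Adj a x → orbit (stabilizer G a) x ⊆ {w | Γ.Adj a w} := by
    rintro x hx _ ⟨g, rfl⟩
    have := (hi g a x).2 hx
    rwa [show (g : G) • a = a from g.2] at this
  have ac : ¬ Γ.Adj a c := fun h => by
    have := Set.ncard_le_ncard (hs c h)
    rw [hc, hS.reg] at this
    omega
  refine ⟨Γ, l, m, hS, hi, fun g => hi g, fun g => g.2, fun w => ?_, by_contra fun h => ?_, ac,
    fun e => Set.disjoint_left.1 d2 (mem_orbit_self a) (e ▸ mem_orbit_self a)⟩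
  · rcases cov w with (h | h) | h
    exacts [Or.inl (by rwa [h1] at h), Or.inr (Or.inl h), Or.inr (Or.inr h)]
  · obtain ⟨x, hx⟩ := Set.nonempty_of_ncard_ne_zero (s := {w | Γ.Adj a w})
      (by rw [hS.reg, ← hb]; exact Set.ncard_ne_zero_of_mem (mem_orbit_self b))
    rcases cov x with (h' | h') | h'
    · rw [h1] at h'
      exact Γ.irrefl (h' ▸ hx :)
    · exact h (hs x hx (orbit_eq_iff.2 h' ▸ mem_orbit_self b))
    · exact ac (hs x hx (orbit_eq_iff.2 h' ▸ mem_orbit_self c))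

theorem stab_eq_of_le [Finite H] [MulAction H X] {K : Subgroup H} {x : X} (h : K ≤ stabilizer H x)
    (hc : K.index = (orbit H x).ncard) : K = stabilizer H x :=
  Subgroup.eq_of_le_of_card_ge h (Nat.le_of_mul_le_mul_right (by
    rw [K.card_mul_index, hc, ← index_stabilizer, Subgroup.card_mul_index]) (Nat.pos_of_ne_zero K.index_ne_zero_of_finite))

/-- the graph of a rank 3 group is determined by the stabiliser. -/
theorem iso_of_loc [Finite H] [Fintype Ω] [MulAction H Ω] [MulAction H X] {Γ : SimpleGraph Ω} {Δ : SimpleGraph X}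
    {a b c : Ω} {x₀ x₁ x₂ : X} {k j l m l₀ m₀ : ℕ} (L : Loc H Γ a b c) (L' : Loc H Δ x₀ x₁ x₂)
    (hS : Srg Γ (1 + k + j) k l m) (hk : (orbit H x₁).ncard = k) (hj : (orbit H x₂).ncard = j)
    (p : ℕ) (hp : p.Prime) (h0 : p ∣ k + 1 ∧ ¬ p ∣ 1 + k + j) (hm : k * (k - l₀ - 1) = j * m₀)
    (h1 : ∀ K : Subgroup H, K.index = k → ∃ g : H, K ≤ stabilizer H (g • x₁))
    (hl : ∀ T ⊆ orbit H x₁, x₁ ∉ T → Inv (stabilizer H x₁) T → T.ncard + 1 < k → j ∣ k * (k - T.ncard - 1) →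
      T.ncard = l₀ ∧ ∀ y ∈ orbit H x₁, y ∈ T ↔ Δ.Adj x₁ y)
    (h2 : ∀ K : Subgroup H, K.index = j → ∀ T ⊆ orbit H x₁, Inv K T → T.ncard = m₀ → ∃ (α : H ≃* H) (u : H),
      (∀ g ∈ K, α g • x₂ = x₂) ∧ (∀ g, g • u • x₁ = u • x₁ ↔ α g • x₁ = x₁) ∧
        ∀ g, g • u • x₁ ∈ T ↔ Δ.Adj x₂ (α g • x₁))
    (h3 : ∀ T ⊆ orbit H x₂, x₂ ∉ T → Inv (stabilizer H x₂) T → T.ncard = k - m₀ →
      ∀ y ∈ orbit H x₂, y ∈ T ↔ Δ.Adj x₂ y) : Nonempty (Γ ≃g Δ) := by
  classical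
  have e0 := (srg_iff.2 hS).param_eq Γ (by omega)
  rw [show 1 + k + j - k - 1 = j by omega] at e0
  have ib : (orbit H b).ncard = k := by rw [← hS.reg a]; exact congrArg _ (Set.ext fun _ => L.mem_b)
  have ic : (stabilizer H c).index = j := by
    rw [index_stabilizer, show orbit H c = (insert a {w | Γ.Adj a w})ᶜ from Set.ext fun w => by simp [L.mem_c, eq_comm],
      Set.ncard_compl, hS.card, Set.ncard_insert_of_notMem (s := {w | Γ.Adj a w}) Γ.irrefl, hS.reg]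
    omega
  have j0 : 0 < j := ic ▸ Nat.pos_of_ne_zero Subgroup.index_ne_zero_of_finite
  have hlt : l + 1 < k := by
    have : l < k := by
      rw [← hS.adj a b L.ab, ← hS.reg a]
      exact Set.ncard_lt_ncard ⟨fun _ h => h.1, fun h => Γ.irrefl (h L.ab).2⟩
    refine lt_of_le_of_ne this fun e => h0.2 ?_
    subst e
    obtain rfl : m = 0 := by
      rw [show l + 1 - l - 1 = 0 by omega] at e0
      exact (Nat.mul_eq_zero.1 e0.symm).resolve_left j0.ne'
    have := Fact.mk hp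
    have h4 : (p : ℤ) ∣ l + 1 + 1 := by exact_mod_cast h0.1
    have := HS.srg_dvd hS p 1 0 (by simpa using h4) (by convert h4 using 1; push_cast; ring) (by simp)
    exact_mod_cast (by simpa using this : (p : ℤ) ∣ 1 + (l + 1) + j)
  have key : ∀ [MulAction H Ω] {b : Ω}, Loc H Γ a b c → stabilizer H b = stabilizer H x₁ →
      l = l₀ ∧ ∀ g : H, Γ.Adj b (g • b) ↔ Δ.Adj x₁ (g • x₁) := fun L hb => by
    have e1 := (ncard_tr hb fun w => and_congr_left' L.mem_b.symm).trans (hS.adj _ _ L.ab)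
    have := hl _ tr_sub (L.not_mem_tr hb) (hb ▸ L.inv_tr)
      (e1.symm ▸ hlt) (e1.symm ▸ ⟨m, e0⟩)
    exact ⟨e1.symm.trans this.1, fun g => (mem_tr hb g).symm.trans (this.2 _ ⟨g, rfl⟩)⟩
  obtain ⟨v, hv⟩ := h1 (stabilizer H b) ((index_stabilizer H b).trans ib)
  have hv := stab_eq_of_le hv (by rw [index_stabilizer, ib, orbit_smul, hk])
  have hb : stabilizer H (v⁻¹ • b) = stabilizer H x₁ := by
    rw [stabilizer_smul_eq_stabilizer_map_conj, hv, ← stabilizer_smul_eq_stabilizer_map_conj, inv_smul_smul]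
  have L1 : Loc H Γ a (v⁻¹ • b) c := L.twist (MonoidHom.id H) Function.surjective_id v⁻¹
  obtain rfl := (key L1 hb).1
  obtain rfl : m = m₀ := Nat.eq_of_mul_eq_mul_left j0 (e0.symm.trans hm)
  obtain ⟨α, u, a1, a2, a3⟩ := h2 _ ic _ tr_sub (L1.inv_tr (x := x₁))
    ((ncard_tr hb fun w => and_congr_left' L1.mem_b.symm).trans (hS.nadj a c L.ne L.ac))
  have L2 := L1.twist α.symm.toMonoidHom α.symm.surjective u
  have s1 : ∀ g : H, α.symm g • u • v⁻¹ • b = u • v⁻¹ • b ↔ g • x₁ = x₁ := fun g => by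
    rw [← mul_smul, smul_eq_tr hb, mul_smul, a2, α.apply_symm_apply]
  have s2 : (stabilizer H c).map α.toMonoidHom = stabilizer H x₂ :=
    stab_eq_of_le (by rintro _ ⟨g, hg, rfl⟩; exact a1 g hg) ((Subgroup.index_map_equiv _ α).trans (ic.trans hj.symm))
  have s3 : ∀ g : H, Γ.Adj c (α.symm g • u • v⁻¹ • b) ↔ Δ.Adj x₂ (g • x₁) := fun g => by
    rw [← mul_smul, ← mem_tr hb (P := Γ.Adj c), mul_smul, a3, α.apply_symm_apply]
  have s4 : ∀ g : H, α.symm g • c = c ↔ g • x₂ = x₂ := fun g => by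
    rw [← mem_stabilizer_iff (a := x₂), ← s2, Subgroup.mem_map_equiv, mem_stabilizer_iff]
  let := MulAction.compHom Ω α.symm.toMonoidHom
  have hb' : stabilizer H (HSMul.hSMul (α := H) 1 (_ : Ω)) = stabilizer H x₁ := Subgroup.ext fun g => by
    rw [one_smul]; exact s1 g
  rw [one_smul] at hb'
  have hc' : stabilizer H c = stabilizer H x₂ := Subgroup.ext s4
  refine L2.iso L' hb' hc' (key L2 hb').2 s3 fun g => (mem_tr hc' g).symm.trans (h3 _ tr_sub
    (L2.not_mem_tr hc') (hc' ▸ L2.inv_tr)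
    (L2.ncard_cc hS hc') _ ⟨g, rfl⟩)

/-- the automorphisms of a graph, as permutations. -/
def autS (Δ : SimpleGraph X) : Subgroup (Perm X) where
  carrier := {g | ∀ u v, Δ.Adj (g u) (g v) ↔ Δ.Adj u v}
  one_mem' _ _ := Iff.rfl
  mul_mem' ha hb u v := (ha _ _).trans (hb u v)
  inv_mem' {g} hg u v := by simpa using (hg (g⁻¹ u) (g⁻¹ v)).symm

theorem equiv_of_aut {G S B : Type*} [Group G] [Group S] [Group B] [IsSimpleGroup S] {A : Subgroup B} [Finite A]
    (f : G →* B) (f' : S →* B) (hf : Function.Injective f) (hf' : Function.Injective f') (hA : ∀ g, f g ∈ A)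
    (hA' : ∀ g, f' g ∈ A) {n : ℕ} (hG : Nat.card G = n) (hS : Nat.card S = n) (hn : 2 < n) (h : Nat.card A ≤ 2 * n) :
    Nonempty (G ≃* S) := by
  let e := MonoidHom.ofInjective (f := f.codRestrict A hA) fun _ _ h => hf (congrArg Subtype.val h)
  let e' := MonoidHom.ofInjective (f := f'.codRestrict A hA') fun _ _ h => hf' (congrArg Subtype.val h)
  have h1 := (Nat.card_congr e.toEquiv).symm.trans hG
  have h2 := (Nat.card_congr e'.toEquiv).symm.trans hS
  have h3 : (f.codRestrict A hA).range.index ≤ 2 :=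
    Nat.le_of_mul_le_mul_left (by rw [← h1, Subgroup.card_mul_index, h1, mul_comm]; exact h) (show 0 < n by omega)
  have h4 := (f.codRestrict A hA).range.index_ne_zero_of_finite
  have : (f.codRestrict A hA).range.Normal := by
    rcases (show _ = 1 ∨ _ = 2 by omega : (f.codRestrict A hA).range.index = 1 ∨ (f.codRestrict A hA).range.index = 2)
      with h | h
    exacts [Subgroup.index_eq_one.1 h ▸ inferInstance, Subgroup.normal_of_index_eq_two h]
  have h5 : (f'.codRestrict A hA').range ≤ (f.codRestrict A hA).range := by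
    rcases IsSimpleGroup.eq_bot_or_eq_top_of_normal ((f.codRestrict A hA).range.comap (f'.codRestrict A hA'))
      inferInstance with h | h
    · have h5 := Nat.le_of_dvd (Nat.pos_of_ne_zero h4) ((f.codRestrict A hA).range.index_comap (f'.codRestrict A hA') ▸
        Subgroup.relIndex_dvd_index_of_normal (f.codRestrict A hA).range (f'.codRestrict A hA').range)
      rw [h, Subgroup.index_bot, hS] at h5
      omega
    · rintro _ ⟨g, rfl⟩
      exact (h.ge trivial :)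
  exact ⟨(e.trans (MulEquiv.subgroupCongr (Subgroup.eq_of_le_of_card_ge h5 (h1.trans h2.symm).le).symm)).trans e'.symm⟩

theorem equiv_of_iso {G S : Type*} [Group G] [Group S] [IsSimpleGroup S] [Finite X] [MulAction G Ω] [MulAction S X]
    [FaithfulSMul G Ω] [FaithfulSMul S X] {Γ : SimpleGraph Ω} {Δ : SimpleGraph X} (e : Γ ≃g Δ)
    (hΓ : ∀ (g : G) x y, Γ.Adj (g • x) (g • y) ↔ Γ.Adj x y) (hΔ : ∀ (g : S) x y, Δ.Adj (g • x) (g • y) ↔ Δ.Adj x y)
    {n : ℕ} (hG : Nat.card G = n) (hS : Nat.card S = n) (hn : 2 < n) (h : Nat.card (autS Δ) ≤ 2 * n) :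
    Nonempty (G ≃* S) :=
  equiv_of_aut (A := autS Δ) (e.toEquiv.permCongrHom.toMonoidHom.comp (toPermHom G Ω)) (toPermHom S X)
    (e.toEquiv.permCongrHom.injective.comp toPerm_injective) toPerm_injective
    (fun g u v => e.map_adj_iff.trans ((hΓ g _ _).trans e.symm.map_adj_iff)) hΔ hG hS hn h

end Cfsg.Agent.R3
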