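import Cfsg.Agent.R3.Basic
import Cfsg.Agent.Perm.SylCount
import Cfsg.Prelude.Def_KGroupFacts

/-! Kernel tools for rank 3 recognition (helper22): sets `St E s` given by masks, orbit masks `orbM`, enumeration of
the invariant sets of a given size (`enum_sound`), separation by masks (`fix_of_sepS`), neighbour masks (`IsNb`, `lk`,
`isNb_appW`), `dvd_ncard_of_orbits`, `invS`, `exists_conj_ge`, `equiv_of_loc` (the untwisted recognition theorem),
`equiv_mulAut`. -/

set_option autoImplicit false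

namespace Cfsg.Agent.R3

open MulAction Equiv Cfsg.Agent.Comp Cfsg.Agent.Perm Cfsg.Agent.Known

/-- the set of a mask. -/
def St {α : Type*} {n : ℕ} (E : Enc α n) (s : ℕ) : Set α := {x | s.testBit (E.enc x) = true}

def orAll (os : List ℕ) : ℕ := List.rec (motive := fun _ => ℕ) 0 (fun a _ ih => Nat.lor a ih) os

def maskL (l : List ℕ) : ℕ := List.rec (motive := fun _ => ℕ) 0 (fun a _ ih => Nat.lor (idA a) ih) l

/-- mask of an orbit. -/
def orbM (n w m : ℕ) (L : List ℕ) (b : ℕ) : ℕ := maskL (orbitL (get w m) (fun a => a) (fun _ => true) L (Nat.succ n) b)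

def hd (l : List ℕ) : ℕ := List.rec (motive := fun _ => ℕ) 0 (fun a _ _ => a) l

def tl (l : List ℕ) : List ℕ := List.rec (motive := fun _ => List ℕ) [] (fun _ t _ => t) l

/-- all unions of total size `b` satisfy `f`. -/
def enumS (f : ℕ → Bool) (os : List ℕ) : List ℕ → ℕ → ℕ → Bool :=
  List.rec (motive := fun _ => List ℕ → ℕ → ℕ → Bool) (fun _ b acc => bif' (Nat.beq b 0) (f acc) true)
    (fun o _ ih ss b acc => band (ih (tl ss) b acc) (bif' (Nat.ble (hd ss) b)
      (force (Nat.sub b (hd ss)) fun b' => force (Nat.lor acc o) fun a' => ih (tl ss) b' a') true)) os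

def disjS (os : List ℕ) : Bool :=
  List.rec (motive := fun _ => Bool) true (fun o t ih => band (Nat.beq (Nat.land o (orAll t)) 0) ih) os

/-- the orbits of `reps` cover `U`. -/
def covOK (n : ℕ) (reps os : List ℕ) (U : ℕ) : Bool :=
  band (allL reps fun r => Nat.blt r n) (Nat.beq (Nat.land U (orAll os)) U)

def enumOK (n w m : ℕ) (L reps : List ℕ) (U : ℕ) (bs : List ℕ) (f : ℕ → Bool) : Bool :=
  forceL L fun L => forceL (mapL (orbM n w m L) reps) fun os => forceL (mapL (popc n) os) fun ss =>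
    band (covOK n reps os U) (band (disjS os) (allL bs fun b => enumS f os ss b 0))

/-- the masks separate the points of `s`. -/
def sepS (ms : List ℕ) : ℕ → Bool :=
  List.rec (motive := fun _ => ℕ → Bool) (fun s => Nat.beq (Nat.land s (Nat.pred s)) 0)
    (fun a _ ih s => bor (Nat.beq (Nat.land s (Nat.pred s)) 0)
      (force (Nat.land a s) fun t => band (ih t) (force (Nat.xor s t) ih))) ms

/-- table lookup with a default. -/
def lk (d : ℕ → ℕ) (p : ℕ) (ps : List ℕ) : List ℕ → ℕ :=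
  List.rec (motive := fun _ => List ℕ → ℕ) (fun _ => d p) (fun a _ ih ms => bif' (Nat.beq a p) (hd ms) (ih (tl ms))) ps

theorem lk_prop {β : Type} {Q : ℕ → ℕ → Prop} {d : ℕ → ℕ} (hd : ∀ p, Q p (d p)) {f F : β → ℕ} (p : ℕ) (l : List β) :
    (∀ z ∈ l, Q (f z) (F z)) → Q p (lk d p (mapL f l) (mapL F l)) := by
  induction l with
  | nil => exact fun _ => hd p
  | cons z l ih =>
    intro h
    change Q p (bif' (Nat.beq (f z) p) (F z) (lk d p (mapL f l) (mapL F l)))
    rw [bif'_eq]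
    split_ifs with e
    exacts [nbeq.1 e ▸ h z (by simp), ih fun y hy => h y (by simp [hy])]

theorem lk_mem {β : Type} {Q : ℕ → ℕ → Prop} {d : ℕ → ℕ} {f F : β → ℕ} {p : ℕ} {l : List β} (h : ∀ z ∈ l, Q (f z) (F z)) :
    (p ∈ mapL f l → Q p (lk d p (mapL f l) (mapL F l))) ∧ (p ∉ mapL f l → lk d p (mapL f l) (mapL F l) = d p) := by
  induction l with
  | nil => exact ⟨fun h => absurd h List.not_mem_nil, fun _ => rfl⟩
  | cons z l ih =>
    have ih := ih fun y hy => h y (by simp [hy])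
    change (p ∈ f z :: mapL f l → Q p (bif' (Nat.beq (f z) p) (F z) (lk d p (mapL f l) (mapL F l)))) ∧
      (p ∉ f z :: mapL f l → bif' (Nat.beq (f z) p) (F z) (lk d p (mapL f l) (mapL F l)) = d p)
    rw [bif'_eq, List.mem_cons]
    split_ifs with e
    · exact ⟨fun _ => nbeq.1 e ▸ h z (by simp), fun h => absurd (.inl (nbeq.1 e).symm) h⟩
    · exact ⟨fun h => ih.1 (h.resolve_left fun e' => e (nbeq.2 e'.symm)), fun h => ih.2 fun e' => h (.inr e')⟩

theorem testBit_orAll {j : ℕ} (os : List ℕ) : (orAll os).testBit j = true ↔ ∃ o ∈ os, o.testBit j = true := by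
  induction os with
  | nil => simp [orAll]
  | cons a l ih => change (a ||| orAll l).testBit j = true ↔ _; simp [ih]

theorem testBit_maskL {j : ℕ} (l : List ℕ) : (maskL l).testBit j = true ↔ j ∈ l := by
  induction l with
  | nil => simp [maskL]
  | cons a l ih => change (idA a ||| maskL l).testBit j = true ↔ _; simp [ih, testBit_idA, eq_comm (a := a)]

theorem popc_or {a b : ℕ} (h : a &&& b = 0) (n : ℕ) : popc n (a ||| b) = popc n a + popc n b := by
  induction n with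
  | zero => rfl
  | succ n ih =>
    have := congrArg (·.testBit n) h
    simp only [Nat.testBit_and, Nat.zero_testBit] at this
    rw [popc_succ, popc_succ, popc_succ, ih, Nat.testBit_or]
    revert this
    cases a.testBit n <;> cases b.testBit n <;> simp <;> omega

theorem enumS_sound {n u : ℕ} {f : ℕ → Bool} (os : List ℕ) : ∀ b acc, disjS os = true →
    (∀ o ∈ os, u &&& o = o ∨ u &&& o = 0) → popc n (u &&& orAll os) = b → enumS f os (mapL (popc n) os) b acc = true →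
    f (acc ||| (u &&& orAll os)) = true := by
  induction os with
  | nil =>
    intro b acc _ _ hb h
    change bif' (Nat.beq b 0) (f acc) true = true at h
    change popc n (u &&& 0) = b at hb
    change f (acc ||| (u &&& 0)) = true
    rw [Nat.and_zero] at hb ⊢
    rwa [← hb, popc_eq, Finset.filter_false_of_mem (by simp), ← Nat.or_zero acc] at h
  | cons o l ih =>
    intro b acc hd ho hb h
    change band (Nat.beq (o &&& orAll l) 0) (disjS l) = true at hd
    change band (enumS f l (mapL (popc n) l) b acc) (bif' (Nat.ble (popc n o) b) (force (b - popc n o) fun b' =>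
      force (acc ||| o) fun a' => enumS f l (mapL (popc n) l) b' a') true) = true at h
    change popc n (u &&& (o ||| orAll l)) = b at hb
    change f (acc ||| (u &&& (o ||| orAll l))) = true
    simp only [band_eq, Bool.and_eq_true, nbeq, force_eq] at hd h
    have ho' := fun o' h' => ho o' (List.mem_cons_of_mem _ h')
    rw [Nat.and_or_distrib_left] at hb ⊢
    rcases ho o (by simp) with e | e <;> rw [e] at hb ⊢
    · rw [popc_or (by rw [Nat.and_left_comm, hd.1, Nat.and_zero])] at hb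
      rw [nble.2 (show popc n o ≤ b by omega)] at h
      rw [← Nat.or_assoc]
      exact ih _ _ hd.2 ho' (by omega) h.2
    · rw [Nat.zero_or] at hb ⊢
      exact ih _ _ hd.2 ho' hb h.1

section enc

variable {α : Type*} {n : ℕ} {E : Enc α n} {w m : ℕ} {G : Type*} [Group G] [MulAction G α] {K : Subgroup G} {L : List ℕ}

theorem ncard_St (s : ℕ) : (St E s).ncard = popc n s := by
  classical
  have := E.finite
  have := Fintype.ofFinite α
  rw [← E.card_ofMask, ← Set.ncard_coe_finset]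
  exact congrArg _ (Set.ext fun x => by simp [St])

theorem exists_St (T : Set α) : ∃ u < 2 ^ n, T = St E u := by
  classical
  have := E.finite
  have := Fintype.ofFinite α
  obtain ⟨u, h, e⟩ := E.exists_mask T.toFinset
  exact ⟨u, h, Set.ext fun x => by rw [← Set.mem_toFinset, e, E.mem_ofMask]; rfl⟩

theorem orbM_spec (hK : CodesIn (PRep E w m) L K) {b : ℕ} (hb : b < n) {j : ℕ}
    (h : (orbM n w m L b).testBit j = true) : ∃ x ∈ orbit K (E.dec b), j = E.enc x :=
  let ⟨g, hg, e⟩ := orbitL_reach (isAct_point E w m) hK (E.enc_dec b hb).symm ((testBit_maskL _).1 h)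
  ⟨_, ⟨⟨g, hg⟩, rfl⟩, e⟩

theorem orbM_sub (hK : CodesIn (PRep E w m) L K) {b : ℕ} (hb : b < n) : St E (orbM n w m L b) ⊆ orbit K (E.dec b) :=
  fun _ h => let ⟨_, hx, e⟩ := orbM_spec hK hb h; E.enc_injective e ▸ hx

theorem cov_spec {reps : List ℕ} {F : ℕ → ℕ} {U : ℕ} (h : covOK n reps (mapL F reps) U = true) {x : α} (hx : x ∈ St E U) :
    ∃ r ∈ reps, r < n ∧ x ∈ St E (F r) := by
  simp only [covOK, band_eq, Bool.and_eq_true, allL_iff, nblt, nbeq, mapL_eq] at h
  have : (U &&& orAll (reps.map F)).testBit (E.enc x) = true :=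
    (congrArg (fun t : ℕ => t.testBit (E.enc x)) h.2).trans (show U.testBit _ = true from hx)
  rw [Nat.testBit_and, Bool.and_eq_true, testBit_orAll] at this
  obtain ⟨_, ho, e⟩ := this.2
  obtain ⟨r, hr, rfl⟩ := List.mem_map.1 ho
  exact ⟨r, hr, h.1 r hr, e⟩

theorem enum_sound (hK : CodesIn (PRep E w m) L K) {reps bs : List ℕ} {U : ℕ} {f : ℕ → Bool}
    (h : enumOK n w m L reps U bs f = true) {T : Set α} (hT : T ⊆ St E U) (hi : Inv K T) (hb : T.ncard ∈ bs) :
    ∃ u < 2 ^ n, T = St E u ∧ f u = true := by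
  obtain ⟨u, hu, rfl⟩ := exists_St (E := E) T
  simp only [enumOK, forceL_eq, band_eq, Bool.and_eq_true, allL_iff] at h
  have e : u &&& orAll (mapL (orbM n w m L) reps) = u := eq_of_enc_bits (E := E) (lt_of_le_of_lt Nat.and_le_left hu) hu
    (1 : G) fun y => by
      rw [Nat.testBit_and, Bool.and_eq_left_iff_imp]
      intro hy
      obtain ⟨r, hr, -, h'⟩ := cov_spec h.1 (hT hy)
      exact (testBit_orAll _).2 ⟨_, by rw [mapL_eq]; exact List.mem_map_of_mem hr, h'⟩
  have := enumS_sound (u := u) _ _ 0 h.2.1 (fun o ho => ?_) (by rw [e, ncard_St]) (h.2.2 _ hb)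
  · exact ⟨u, hu, rfl, by rwa [e, Nat.zero_or] at this⟩
  rw [mapL_eq] at ho
  obtain ⟨r, hr, rfl⟩ := List.mem_map.1 ho
  have hr : r < n := by
    simp only [covOK, band_eq, Bool.and_eq_true, allL_iff, nblt] at h
    exact h.1.1 r hr
  refine or_iff_not_imp_right.2 fun h0 => Nat.eq_of_testBit_eq fun j => ?_
  obtain ⟨i, hi'⟩ := Nat.exists_testBit_of_ne_zero h0
  rw [Nat.testBit_and, Bool.and_eq_true] at hi'
  rw [Nat.testBit_and, Bool.and_eq_right_iff_imp]
  intro hj
  obtain ⟨x, hx, rfl⟩ := orbM_spec hK hr hi'.2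
  obtain ⟨y, hy, rfl⟩ := orbM_spec hK hr hj
  obtain ⟨g, hg, rfl⟩ := trOn_orbit K _ x hx y hy
  exact hi g hg x hi'.1

theorem fix_of_sepS {g : G} (ms : List ℕ) : (∀ a ∈ ms, ∀ z, a.testBit (E.enc z) = a.testBit (E.enc (g • z))) →
    ∀ s, RelM E g s s → sepS ms s = true → ∀ z, s.testBit (E.enc z) = true → g • z = z := by
  have key : ∀ s, RelM E g s s → Nat.beq (s &&& s.pred) 0 = true → ∀ z, s.testBit (E.enc z) = true → g • z = z :=
    fun s hs h z hz => fix_of_ptsM (p := fun _ => s) (fun _ => hs) 1 (by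
      change (force s fun x => bif' (Nat.beq (x &&& x.pred) 0) (0 ||| x) 0).testBit _ = true
      rwa [force_eq, h, bif'_true, Nat.zero_or])
  induction ms with
  | nil => exact fun _ => key
  | cons a l ih =>
    intro hl s hs h z hz
    change bor (Nat.beq (s &&& s.pred) 0) (force (a &&& s) fun t => band (sepS l t) (force (s ^^^ t) (sepS l))) = true at h
    simp only [bor_eq, band_eq, force_eq, Bool.or_eq_true, Bool.and_eq_true] at h
    have hl' := fun b hb => hl b (List.mem_cons_of_mem _ hb)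
    have h1 := RelM.and (hl a (by simp)) hs
    rcases h with h | h
    · exact key s hs h z hz
    · cases e : a.testBit (E.enc z)
      · exact ih hl' _ (hs.xor h1) h.2 z (by simp [hz, e])
      · exact ih hl' _ h1 h.1 z (by simp [hz, e])

theorem relM_of_inv {u : ℕ} (hu : u < 2 ^ n) (hi : Inv K (St E u)) {g : G} (hg : g ∈ K) : RelM E g u u :=
  ⟨hu, hu, fun y => Bool.eq_iff_iff.2 ⟨hi g hg y, fun h => by simpa [St] using hi _ (inv_mem hg) _ h⟩⟩

/-- `s` is the mask of the neighbours of `p`. -/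
def IsNb (E : Enc α n) (Δ : SimpleGraph α) (p s : ℕ) : Prop := ∀ x, s.testBit (E.enc x) = true ↔ Δ.Adj (E.dec p) x

/-- the neighbour masks. -/
noncomputable def nbM (E : Enc α n) (Δ : SimpleGraph α) (p : ℕ) : ℕ :=
  (exists_St (E := E) {x | Δ.Adj (E.dec p) x}).choose

theorem isNb_nbM (Δ : SimpleGraph α) (p : ℕ) : IsNb E Δ p (nbM E Δ p) := fun x =>
  (Set.ext_iff.1 (exists_St (E := E) {x | Δ.Adj (E.dec p) x}).choose_spec.2 x).symm

theorem IsNb.map {Δ : SimpleGraph α} {p q s t : ℕ} (hs : IsNb E Δ p s) (ht : IsNb E Δ q t) {g : G}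
    (hg : ∀ u v, Δ.Adj (g • u) (g • v) ↔ Δ.Adj u v) (e : g • E.dec p = E.dec q) (z : α) :
    s.testBit (E.enc z) = t.testBit (E.enc (g • z)) :=
  Bool.eq_iff_iff.2 (by rw [hs, ht, ← e, hg])

theorem gmap_isNb {Δ : SimpleGraph α} {M : ℕ → ℕ} (hM : ∀ p, IsNb E Δ p (M p)) {g : G}
    (hg : ∀ u v, Δ.Adj (g • u) (g • v) ↔ Δ.Adj u v) : GMap1 E g M M := fun _ =>
  (hM _).map (hM _) hg (by rw [E.dec_enc, E.dec_enc])

theorem gmap_lk {Δ : SimpleGraph α} {β : Type} {f F : β → ℕ} {l : List β} (hF : ∀ z ∈ l, IsNb E Δ (f z) (F z)) {g : G}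
    (hg : ∀ u v, Δ.Adj (g • u) (g • v) ↔ Δ.Adj u v) (hU : ∀ x, E.enc x ∈ mapL f l ↔ E.enc (g • x) ∈ mapL f l) :
    GMap1 E g (fun p => lk (fun _ => 0) p (mapL f l) (mapL F l)) fun p => lk (fun _ => 0) p (mapL f l) (mapL F l) :=
  fun x y => by
    by_cases h : E.enc x ∈ mapL f l
    · exact ((lk_mem hF).1 h).map ((lk_mem hF).1 ((hU x).1 h)) hg (by rw [E.dec_enc, E.dec_enc]) y
    · simp only [(lk_mem hF).2 h, (lk_mem hF).2 (mt (hU x).2 h), Nat.zero_testBit]

end enc

theorem isNb_appW {S : Type*} [Group S] {g : ℕ → S} {nets : List Spor.Net} {N nl k n : ℕ} {φ : S →* Perm ℕ}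
    (R : Spor.PermRep g nets (N + 1) nl φ) {y : ℕ → S} {act : ℕ → ℕ → ℕ} {B : List ℕ} (M : Mdl φ (N + 1) k n y act B)
    {Δ : SimpleGraph (Fin (N + 1))} (hΔ : letI := M.mact; ∀ (s : S) u v, Δ.Adj (s • u) (s • v) ↔ Δ.Adj u v) {b A : ℕ}
    (hA : IsNb (encFin N) Δ b A) (hb : b < N + 1) {l : List (ℕ × List ℕ)}
    (h : allL l (fun z => band (allL z.2 fun j => Nat.blt j nl) (tb (Spor.appW nets z.2 (idA b)) z.1)) = true) :
    ∀ z ∈ l, IsNb (encFin N) Δ z.1 (Spor.appW nets z.2 A) := fun z hz x => by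
  let := M.mact
  have := allL_iff.1 h z hz
  simp only [band_eq, Bool.and_eq_true, allL_iff, nblt, tb_eq, Spor.appW_testBit' R.ok, testBit_idA, decide_eq_true_eq] at this
  rw [← R.map_ev this.1, ← map_inv] at this
  have h1 : z.1 < N + 1 := by
    by_contra h1
    rw [M.fix _ _ (not_lt.1 h1)] at this
    omega
  rw [Spor.appW_testBit' R.ok, ← R.map_ev this.1, ← map_inv, ← hΔ (Spor.ev g z.2)⁻¹]
  refine (hA ((Spor.ev g z.2)⁻¹ • x)).trans (Iff.of_eq (congrArg (Δ.Adj · _) (Fin.ext ?_)))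
  exact ((encFin N).enc_dec b hb).trans (this.2.trans (congrArg _ ((encFin N).enc_dec _ h1).symm))

section grp

variable {G X : Type*} [Group G] [MulAction G X] {H K Q : Subgroup G}

theorem dvd_ncard_of_orbits {d : ℕ} (k : ℕ) : ∀ U : Set X, U.Finite → U.ncard = k → Inv K U →
    (∀ x ∈ U, d ∣ (orbit K x).ncard) → d ∣ k := by
  induction k using Nat.strong_induction_on with
  | _ k ih =>
    rintro U hU rfl hi h
    rcases U.eq_empty_or_nonempty with rfl | ⟨x, hx⟩
    · simp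
    have h1 := Set.ncard_sdiff_add_ncard_of_subset (hi.orbit_sub hx) hU
    have h2 := (Set.ncard_pos (hU.subset (hi.orbit_sub hx))).2 ⟨x, mem_orbit_self x⟩
    rw [← h1]
    refine dvd_add (ih _ (by omega) _ (hU.subset Set.sdiff_subset) rfl (fun g hg y hy => ⟨hi g hg y hy.1, fun e => hy.2 ?_⟩)
      fun y hy => h y hy.1) (h x hx)
    simpa using inv_orbit K x _ (inv_mem hg) _ e

/-- the stabiliser of a finite set. -/
def invS (G : Type*) {X : Type*} [Group G] [MulAction G X] [Finite X] (U : Set X) : Subgroup G where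
  carrier := {g | ∀ x ∈ U, g • x ∈ U}
  one_mem' x hx := by rwa [one_smul]
  mul_mem' ha hb x hx := mul_smul (α := G) _ _ x ▸ ha _ (hb x hx)
  inv_mem' {g} hg := closure_mapsTo_of_finite (T := {g}) (Set.toFinite U) (by rintro _ rfl; exact hg)
    (inv_mem (Subgroup.subset_closure rfl))

theorem exists_conj_ge [Finite H] {p k N : ℕ} (hp : p.Prime) (hK : K ≤ H) (hQ : Q ≤ H) (hN : Nat.card H = N)
    (hn : ¬ p ^ (k + 1) ∣ N) (hd : p ^ k ∣ Nat.card K) (hq : IsPGroup p Q) :
    ∃ g ∈ H, Q ≤ K.map (MulAut.conj g).toMonoidHom := by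
  have := Fact.mk hp
  have : Finite K := Finite.of_injective _ (Subgroup.inclusion_injective hK)
  obtain ⟨P, hP⟩ := Sylow.exists_subgroup_card_pow_prime p hd
  obtain ⟨g, hg, h⟩ := exists_conj_le_sylow hp ((Subgroup.map_subtype_le P).trans hK) hQ
    ((Subgroup.card_map_of_injective K.subtype_injective).trans hP) hN hn hq
  exact ⟨g⁻¹, inv_mem hg, fun x hx => ⟨_, Subgroup.map_subtype_le P (h x hx), by simp [mul_assoc]⟩⟩

theorem map_conj_le {g : G} (hK : K ≤ H) (hg : g ∈ H) : K.map (MulAut.conj g).toMonoidHom ≤ H :=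
  map_conj_self hg ▸ Subgroup.map_mono hK

theorem fix_of_conj {g : G} (hg : g ∈ H) {x : X}
    (h : ∃ v ∈ H, K.map (MulAut.conj g).toMonoidHom ≤ stabilizer G (v • x)) : ∃ v ∈ H, K ≤ stabilizer G (v • x) :=
  let ⟨v, hv, h⟩ := h
  ⟨g⁻¹ * v, mul_mem (inv_mem hg) hv, fun k hk => by
    have : (g * k * g⁻¹) • v • x = v • x := h ⟨k, hk, rfl⟩
    rw [mem_stabilizer_iff, mul_smul, eq_inv_smul_iff, ← mul_smul, ← mul_smul, this]⟩

theorem le_stab_of_ncard {x : X} (h : (orbit K x).ncard = 1) : K ≤ stabilizer G x := fun g hg => by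
  obtain ⟨y, e⟩ := Set.ncard_eq_one.1 h
  exact (e.le (mem_orbit x (⟨g, hg⟩ : K))).trans (e.le (mem_orbit_self x)).symm

end grp

/-- recognition of a rank 3 group when no outer automorphism of the stabiliser is needed. -/
theorem equiv_of_loc {G S Ω X : Type*} [Group G] [Group S] [IsSimpleGroup S] [Finite S] [Finite X] [Fintype Ω]
    [MulAction G Ω] [MulAction S X] [FaithfulSMul G Ω] [FaithfulSMul S X] [IsPretransitive G Ω] {a b c : Ω}
    {x₀ x₁ x₂ : X} {k j l₀ m₀ N : ℕ} (e : stabilizer G a ≃* stabilizer S x₀) (hΩ : Nat.card Ω = 1 + k + j)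
    (hb : (orbit (stabilizer G a) b).ncard = k) (hc : (orbit (stabilizer G a) c).ncard = j) (hkj : 1 < k ∧ k < j)
    {Δ : SimpleGraph X} (hΔ : ∀ (g : S) x y, Δ.Adj (g • x) (g • y) ↔ Δ.Adj x y) (L' : Loc (stabilizer S x₀) Δ x₀ x₁ x₂)
    (hk : (orbit (stabilizer S x₀) x₁).ncard = k) (hj : (orbit (stabilizer S x₀) x₂).ncard = j)
    (hN : Nat.card (stabilizer S x₀) = N) (hS : Nat.card S = (1 + k + j) * N)
    (hA : Nat.card (autS Δ) ≤ 2 * ((1 + k + j) * N))
    (p : ℕ) (hp : p.Prime) (h0 : p ∣ k + 1 ∧ ¬ p ∣ 1 + k + j) (hm : k * (k - l₀ - 1) = j * m₀)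
    (h1 : ∀ K ≤ stabilizer S x₀, Nat.card K * k = N → ∃ g ∈ stabilizer S x₀, K ≤ stabilizer S (g • x₁))
    (hl : ∀ T ⊆ orbit (stabilizer S x₀) x₁, x₁ ∉ T → Inv (stabilizer S x₀ ⊓ stabilizer S x₁) T → T.ncard + 1 < k →
      j ∣ k * (k - T.ncard - 1) → T.ncard = l₀ ∧ ∀ y ∈ orbit (stabilizer S x₀) x₁, y ∈ T ↔ Δ.Adj x₁ y)
    (h2 : ∀ K ≤ stabilizer S x₀, Nat.card K * j = N → ∀ T ⊆ orbit (stabilizer S x₀) x₁, Inv K T → T.ncard = m₀ →
      ∃ (α : stabilizer S x₀ ≃* stabilizer S x₀) (u : stabilizer S x₀), (∀ g : stabilizer S x₀, g.1 ∈ K → α g • x₂ = x₂) ∧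
        (∀ g : stabilizer S x₀, g • u • x₁ = u • x₁ ↔ α g • x₁ = x₁) ∧
        ∀ g : stabilizer S x₀, g • u • x₁ ∈ T ↔ Δ.Adj x₂ (α g • x₁))
    (h3 : ∀ T ⊆ orbit (stabilizer S x₀) x₂, x₂ ∉ T → Inv (stabilizer S x₀ ⊓ stabilizer S x₂) T → T.ncard = k - m₀ →
      ∀ y ∈ orbit (stabilizer S x₀) x₂, y ∈ T ↔ Δ.Adj x₂ y) : Nonempty (G ≃* S) := by
  have : Finite G := Finite.of_injective _ (toPerm_injective (α := G) (β := Ω))
  obtain ⟨Γ, l, m, hS', hi, L⟩ := rank3 hΩ hkj.1.ne' (by omega) hkj.2.ne hkj.2 hb hc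
  have L1 := L.twist e.symm.toMonoidHom e.symm.surjective 1
  let := MulAction.compHom Ω e.symm.toMonoidHom
  have c1 : ∀ (K : Subgroup (stabilizer S x₀)) i, K.index = i → Nat.card (K.map (stabilizer S x₀).subtype) * i = N :=
    fun K i h => by rw [Subgroup.card_map_of_injective (Subgroup.subtype_injective _), ← h, K.card_mul_index, hN]
  have c2 : ∀ (x : X) (T : Set X), Inv (stabilizer (stabilizer S x₀) x) T → Inv (stabilizer S x₀ ⊓ stabilizer S x) T :=
    fun x T h g hg => h ⟨g, hg.1⟩ hg.2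
  obtain ⟨f⟩ := iso_of_loc L1 L' hS' hk hj p hp h0 hm (fun K hK =>
      let ⟨g, hg, h⟩ := h1 _ (Subgroup.map_subtype_le K) (c1 K k hK); ⟨⟨g, hg⟩, fun s hs => h ⟨s, hs, rfl⟩⟩)
    (fun T h h' h'' => hl T h h' (c2 _ T h'')) (fun K hK T h h' h'' =>
      let ⟨α, u, a1, a2⟩ := h2 _ (Subgroup.map_subtype_le K) (c1 K j hK) T h (by rintro _ ⟨g, hg, rfl⟩; exact h' g hg) h''
      ⟨α, u, fun g hg => a1 g ⟨g, hg, rfl⟩, a2⟩) fun T h h' h'' => h3 T h h' (c2 _ T h'')
  have h0 : 0 < N := hN ▸ Nat.card_pos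
  exact equiv_of_iso f hi hΔ (by
    rw [card_eq_orbit_mul_stabilizer a, orbit_eq_univ, Set.ncard_univ, hΩ, Nat.card_congr e.toEquiv, hN]) hS
    (by nlinarith [hkj.1, hkj.2]) hA

/-- the third hypothesis of `equiv_of_loc` from a conjugacy statement. -/
theorem untwisted {S X : Type*} [Group S] [MulAction S X] {H K : Subgroup S} {x₁ x₂ : X} {P : X → Prop} {m₀ : ℕ}
    (h : ∃ g ∈ H, K ≤ stabilizer S (g • x₂)) (hc : ∀ g ∈ H, K ≤ stabilizer S (g • x₂) → H ⊓ stabilizer S (g • x₂) ≤ K)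
    (h2 : ∀ T ⊆ orbit H x₁, Inv (H ⊓ stabilizer S x₂) T → T.ncard = m₀ → ∀ y ∈ orbit H x₁, y ∈ T ↔ P y)
    (T : Set X) (hT : T ⊆ orbit H x₁) (hi : Inv K T) (hm : T.ncard = m₀) :
    ∃ (α : H ≃* H) (u : H), (∀ g : H, g.1 ∈ K → α g • x₂ = x₂) ∧ (∀ g : H, g • u • x₁ = u • x₁ ↔ α g • x₁ = x₁) ∧
      ∀ g : H, g • u • x₁ ∈ T ↔ P (α g • x₁) := by
  obtain ⟨v, hv, h⟩ := h
  let u : H := ⟨v, hv⟩
  have e : ∀ (g : H) (x : X), MulAut.conj u⁻¹ g • x = u⁻¹ • g • u • x := fun g x => by simp [mul_smul]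
  refine ⟨MulAut.conj u⁻¹, u, fun g hg => by rw [e, inv_smul_eq_iff]; exact h hg, fun g => by rw [e, inv_smul_eq_iff],
    fun g => ?_⟩
  have := h2 {x | u • x ∈ T} (fun x hx => inv_smul_smul v x ▸ inv_orbit H x₁ _ (inv_mem hv) _ (hT hx)) (fun s hs x hx => ?_)
    (hm ▸ Set.ncard_preimage_of_injective_subset_range (f := fun x : X => u • x) (MulAction.injective u)
      (by rw [(MulAction.surjective u).range_eq]; exact Set.subset_univ _)) (MulAut.conj u⁻¹ g • x₁) ⟨_, rfl⟩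
  · rwa [e, Set.mem_ofPred_eq, smul_inv_smul, ← e] at this
  · have := hi (v * s * v⁻¹) (hc v hv h ⟨H.mul_mem (H.mul_mem hv hs.1) (H.inv_mem hv), mem_stabilizer_iff.2 <| by
      rw [mul_smul, inv_smul_smul, mul_smul, show s • x₂ = x₂ from hs.2]⟩) _ hx
    rwa [mul_smul, show v⁻¹ • u • x = x from inv_smul_smul v x, mul_smul] at this

theorem equiv_mulAut {M X : Type*} [Group M] [Group X] [IsSimpleGroup M] {ψ : M →* X} (h : Function.Injective ψ) {n : ℕ}
    (hM : Nat.card M = n) (hX : Nat.card X = 2 * n) (h0 : n ≠ 0) (hn : ¬ n.Prime) (ho : Nat.card (Cfsg.Out M) = 2)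
    (hZ : ∀ c ∈ Subgroup.center X, orderOf c = 2 → c ∈ ψ.range) : Nonempty (X ≃* MulAut M) := by
  have f := MonoidHom.ofInjective h
  have h5 : ψ.range.index = 2 := Nat.eq_of_mul_eq_mul_right (Nat.pos_of_ne_zero h0) (by
    rw [← hX, ← ψ.range.index_mul_card, ← Nat.card_congr f.toEquiv, hM])
  have := Subgroup.normal_of_index_eq_two h5
  have hz := center_eq_bot_of_simple ‹_› hM hn h0
  have h1 : ∀ c ∈ ψ.range, (∀ x ∈ ψ.range, x * c = c * x) → c = 1 := by
    rintro _ ⟨c, rfl⟩ hc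
    rw [(hz.le (Subgroup.mem_center_iff.2 fun x => h (by rw [map_mul, map_mul, hc _ ⟨x, rfl⟩])) : c = 1), map_one]
  have h2 : Function.Injective (MulAut.conjNormal : X →* MulAut ψ.range) := (injective_iff_map_eq_one _).2 fun c hc => by
    have h3 : ∀ x ∈ ψ.range, x * c = c * x := fun x hx =>
      (mul_inv_eq_iff_eq_mul.1 ((MulAut.conjNormal_apply c (⟨x, hx⟩ : ψ.range)).symm.trans (by rw [hc]; rfl))).symm
    by_contra h4
    refine h4 (h1 c (hZ c (Subgroup.mem_center_iff.2 fun x => ?_) (orderOf_eq_prime (h1 _ (Subgroup.sq_mem_of_index_two h5 c)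
      fun x hx => ((show Commute x c from h3 x hx).pow_right 2).eq) h4)) h3)
    by_cases hx : x ∈ ψ.range
    · exact h3 x hx
    · have := h3 _ ((Subgroup.mul_mem_iff_of_index_two h5).2 (iff_of_false hx fun e => h4 (h1 c e h3)))
      exact mul_right_cancel (this.trans (mul_assoc _ _ _).symm)
  have h6 : Nat.card (MulAut M) = 2 * n := by
    rw [Subgroup.card_eq_card_quotient_mul_card_subgroup (Cfsg.Inn M), ho, ← hM]
    exact congrArg _ (Nat.card_congr (MonoidHom.ofInjective (f := MulAut.conj) ((injective_iff_map_eq_one _).2 fun c hc =>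
      hz.le (Subgroup.mem_center_iff.2 fun x => (mul_inv_eq_iff_eq_mul.1 (DFunLike.congr_fun hc x)).symm))).toEquiv).symm
  have : Finite (MulAut M) := Nat.finite_of_card_ne_zero (by omega)
  exact ⟨MulEquiv.ofBijective ((MulAut.congr f.symm).toMonoidHom.comp MulAut.conjNormal)
    (((MulAut.congr f.symm).injective.comp h2).bijective_of_nat_card_le (h6.trans hX.symm).le)⟩

end Cfsg.Agent.R3
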