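import Cfsg.Agent.R3.Enum
import Cfsg.Agent.Comp.PG

/-! Rank 3 recognition in a permutation model (helper22): codes of words `cdW`, `codes_W`, `fix_W`, `inv_W`, `smul_dec`, orbits from
`IsOrb` (`orbit_eq_St`), `pretrans`, `set_of_enum`, `le_normalizer_of_card`, `exists_prod` (the group of two commuting
elements), triple counts `tri`, `inv_cell`. -/

set_option autoImplicit false

namespace Cfsg.Agent.R3

open MulAction Equiv Cfsg.Agent.Comp Cfsg.Agent.Perm Cfsg.Agent.Known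

/-- codes of words. -/
def cdW (N w : ℕ) (act : ℕ → ℕ → ℕ) (ws : List (List ℕ)) : List ℕ := mapL (codeW N w act) ws

section mdl

variable {S : Type*} [Group S] {φ : S →* Perm ℕ} {N k n : ℕ} {y : ℕ → S} {act : ℕ → ℕ → ℕ} {B : List ℕ}
  (M : Mdl φ (N + 1) k n y act B) {w m : ℕ}

theorem codes_W (hp : Par (N + 1) w m) {ws : List (List ℕ)} {K : Subgroup S} (h : ∀ wd ∈ ws, W y wd ∈ K) :
    letI := M.mact; CodesIn (PRep (encFin N) w m) (cdW (N + 1) w act ws) K := fun c hc => by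
  rw [cdW, mapL_eq] at hc
  obtain ⟨wd, hw, rfl⟩ := List.mem_map.1 hc
  exact ⟨_, h wd hw, M.prep hp wd⟩

theorem smul_dec {wd : List ℕ} {a b : ℕ} (h : band (Nat.blt a (N + 1)) (Nat.beq (actW act wd a) b) = true) :
    letI := M.mact; W y wd • (encFin N).dec a = (encFin N).dec b := by
  let := M.mact
  rw [band_eq, Bool.and_eq_true, nblt, nbeq] at h
  rw [← h.2, ← (encFin N).enc_dec a h.1, M.fnW, (encFin N).dec_enc, (encFin N).dec_enc]

theorem fix_W {ws : List (List ℕ)} {bs : List ℕ}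
    (h : allL ws (fun wd => allL bs fun b => band (Nat.blt b (N + 1)) (Nat.beq (actW act wd b) b)) = true) :
    letI := M.mact; ∀ wd ∈ ws, ∀ b ∈ bs, W y wd ∈ stabilizer S ((encFin N).dec b) := fun wd hw b hb =>
  smul_dec M (allL_iff.1 (allL_iff.1 h wd hw) b hb)

theorem fixM_W {ws : List (List ℕ)} {bs : List ℕ}
    (h : allL ws (fun wd => allL bs fun b => band (Nat.blt b (N + 1)) (Nat.beq (actW act wd b) b)) = true) :
    letI := M.mact; ∀ wd ∈ ws, W y wd ∈ fixM (encFin N) S (maskL bs) := fun wd hw a ha => by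
  have := fix_W M h wd hw _ ((testBit_maskL _).1 ha)
  rwa [(encFin N).dec_enc] at this

theorem inv_W {ws : List (List ℕ)} {bs : List ℕ}
    (h : allL ws (fun wd => allL bs fun b => memL (actW act wd b) bs) = true) :
    letI := M.mact; ∀ wd ∈ ws, W y wd ∈ invS S (St (encFin N) (maskL bs)) := fun wd hw x hx =>
  (testBit_maskL _).2 (M.fnW wd x ▸ memL_iff.1 (allL_iff.1 (allL_iff.1 h wd hw) _ ((testBit_maskL _).1 hx)))

theorem stab_eq {H : Subgroup S} {b : ℕ} (h : Spor.IsStab φ H b) (hb : b < N + 1) :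
    letI := M.mact; stabilizer S ((encFin N).dec b) = H := by
  let := M.mact
  ext a
  rw [h, mem_stabilizer_iff, Fin.ext_iff]
  change φ a ((encFin N).enc ((encFin N).dec b)) = (encFin N).enc ((encFin N).dec b) ↔ _
  rw [(encFin N).enc_dec b hb]

theorem orbit_eq_St {H : Subgroup S} {c A s b : ℕ} (h : Spor.IsOrb (H.map φ) (c, A, s))
    (hb : band (Nat.blt b (N + 1)) (tb A b) = true) : letI := M.mact; orbit H ((encFin N).dec b) = St (encFin N) A := by
  let := M.mact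
  rw [band_eq, Bool.and_eq_true, nblt, tb_eq] at hb
  have e : orbit (H.map φ) b = Spor.bset A := (orbit_eq_iff.2 (h.1.ge hb.2)).trans h.1
  have e1 : ∀ g : S, (g • (encFin N).dec b).1 = φ g b := fun g => congrArg (φ g) ((encFin N).enc_dec b hb.1)
  ext x
  refine ⟨?_, fun hx => ?_⟩
  · rintro ⟨g, rfl⟩
    exact e.le ⟨⟨_, g, g.2, rfl⟩, (e1 g).symm⟩
  · obtain ⟨⟨_, g, hg, rfl⟩, e2⟩ := e.ge hx
    exact ⟨⟨g, hg⟩, Fin.ext ((e1 g).trans e2)⟩

theorem pretrans {b : ℕ} (h : Spor.Trans φ (N + 1) b) : letI := M.mact; IsPretransitive S (Fin (N + 1)) :=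
  letI := M.mact
  isPretransitive_of_orbit_eq_univ (x := ⟨b, h.1⟩) (Set.eq_univ_of_forall fun x =>
    let ⟨a, e⟩ := h.2 x x.2; ⟨a, Fin.ext e⟩)

end mdl

section enc

variable {α : Type*} {n : ℕ} {E : Enc α n} {w m : ℕ} {G : Type*} [Group G] [MulAction G α] {K : Subgroup G} {L : List ℕ}
  {Δ : SimpleGraph α}

theorem dec_mem_St {s b : ℕ} (h : band (Nat.blt b n) (tb s b) = true) : E.dec b ∈ St E s := by
  rw [band_eq, Bool.and_eq_true, nblt, tb_eq] at h
  exact (congrArg s.testBit (E.enc_dec b h.1)).trans h.2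

theorem mem_St_maskL {l : List ℕ} {x : α} (h : x ∈ St E (maskL l)) : ∃ b ∈ l, x = E.dec b :=
  ⟨_, (testBit_maskL _).1 h, (E.dec_enc x).symm⟩

theorem popD_eq {l s : ℕ} (hs : s < 2 ^ n) (hn : n ≤ 2 ^ l) : Spor.popD l s = popc n s := by
  rw [Spor.popD_spec, popc_eq]
  refine congrArg _ (Finset.ext fun i => ?_)
  simp only [Finset.mem_filter, Finset.mem_range]
  refine and_congr_left fun h => iff_of_true (lt_of_lt_of_le ?_ hn) ?_ <;>
    exact (Nat.pow_lt_pow_iff_right (by norm_num)).1 ((Nat.ge_two_pow_of_testBit h).trans_lt hs)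

theorem set_of_enum (hK : CodesIn (PRep E w m) L K) {reps bs : List ℕ} {U p s : ℕ} (hs : IsNb E Δ p s)
    (h : enumOK n w m L reps U bs (fun u => Nat.beq u (Nat.land U s)) = true) {T : Set α} (hT : T ⊆ St E U) (hi : Inv K T)
    (hb : T.ncard ∈ bs) : T.ncard = popc n (Nat.land U s) ∧ ∀ y ∈ St E U, y ∈ T ↔ Δ.Adj (E.dec p) y := by
  obtain ⟨u, -, rfl, e⟩ := enum_sound hK h hT hi hb
  obtain rfl := nbeq.1 e
  exact ⟨ncard_St _, fun y hy => by
    rw [← hs]
    exact (Nat.testBit_and U s _ ▸ Bool.and_eq_true_iff).trans (and_iff_right hy)⟩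

/-- number of common neighbours of three points. -/
noncomputable def tri (Δ : SimpleGraph α) (a b c : α) : ℕ := {z | Δ.Adj a z ∧ Δ.Adj b z ∧ Δ.Adj c z}.ncard

theorem tri_smul {g : G} (hg : ∀ u v, Δ.Adj (g • u) (g • v) ↔ Δ.Adj u v) {a b : α} (ha : g • a = a) (hb : g • b = b)
    (c : α) : tri Δ a b (g • c) = tri Δ a b c := by
  rw [tri, ← Set.ncard_preimage_of_injective_subset_range (f := fun x : α => g • x) (MulAction.injective g)
    (by rw [(MulAction.surjective g).range_eq]; exact Set.subset_univ _)]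
  refine congrArg _ (Set.ext fun z => ?_)
  rw [Set.mem_preimage, Set.mem_ofPred_eq, ← ha, ← hb, hg, hg, hg, ha, hb]; rfl

theorem tri_eq {p q r s t u : ℕ} (hs : IsNb E Δ p s) (ht : IsNb E Δ q t) (hu : IsNb E Δ r u) :
    tri Δ (E.dec p) (E.dec q) (E.dec r) = popc n (Nat.land s (Nat.land t u)) := by
  rw [← ncard_St (E := E)]
  refine congrArg _ (Set.ext fun z => ?_)
  change _ ↔ (s &&& (t &&& u)).testBit _ = true
  simp only [Nat.testBit_and, Bool.and_eq_true, hs z, ht z, hu z, Set.mem_ofPred_eq]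

/-- an orbit of `K` that is singled out by an invariant is invariant under a larger group. -/
theorem inv_cell (hK : CodesIn (PRep E w m) L K) {G' : Type*} [Group G'] [MulAction G' α] {A : Subgroup G'} {f : α → ℕ}
    (h1 : ∀ g ∈ K, ∀ x, f (g • x) = f x) (h2 : ∀ g ∈ A, ∀ x, f (g • x) = f x) {U : ℕ} (hU : Inv A (St E U))
    {l : List (ℕ × List ℕ)} {F : ℕ × List ℕ → ℕ} (hF : ∀ z ∈ l, f (E.dec z.1) = F z) {z₀ : ℕ × List ℕ} (h0 : z₀ ∈ l)
    {C : ℕ} (h : forceL L (fun L => band (covOK n (mapL Prod.fst l) (mapL (orbM n w m L) (mapL Prod.fst l)) U)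
      (band (band (Nat.beq (orbM n w m L z₀.1) C) (Nat.beq (Nat.land U C) C)) (band (Nat.blt z₀.1 n)
        (force (F z₀) fun v => allL l fun z => bor (Nat.beq z.1 z₀.1) (not (Nat.beq (F z) v)))))) = true) :
    Inv A (St E C) := fun g hg x hx => by
  simp only [forceL_eq, force_eq, band_eq, Bool.and_eq_true, nbeq, nblt, allL_iff, bor_eq, Bool.or_eq_true,
    Bool.not_eq_true', nbeq_false] at h
  obtain ⟨a1, ⟨rfl, a2⟩, a3, a4⟩ := h
  have key : ∀ z ∈ l, z.1 < n → ∀ x ∈ St E (orbM n w m L z.1), f x = F z := fun z hz hn x hx => by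
    obtain ⟨k, rfl⟩ := orbM_sub hK hn hx
    exact (h1 k k.2 _).trans (hF z hz)
  have hx' : x ∈ St E U := by
    have : (U &&& orbM n w m L z₀.1).testBit (E.enc x) = true := (congrArg (fun t : ℕ => t.testBit (E.enc x)) a2).trans hx
    rw [Nat.testBit_and, Bool.and_eq_true] at this
    exact this.1
  obtain ⟨r, hr, hn, e⟩ := cov_spec a1 (hU g hg x hx')
  rw [mapL_eq] at hr
  obtain ⟨z, hz, rfl⟩ := List.mem_map.1 hr
  rcases a4 z hz with e' | e'
  · exact e' ▸ e
  · exact absurd ((key z hz hn _ e).symm.trans ((h2 g hg x).trans (key z₀ h0 a3 x hx))) e'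

end enc

theorem exists_prod {G : Type*} [Group G] {a b : G} (h : Commute a b) : ∃ P : Subgroup G, a ∈ P ∧ b ∈ P ∧
    Nat.card P ∣ orderOf a * orderOf b ∧ ∀ K : Subgroup G, a ∈ K → b ∈ K → P ≤ K := by
  let f := (Subgroup.zpowers a).subtype.noncommCoprod (Subgroup.zpowers b).subtype (by
    rintro ⟨_, i, rfl⟩ ⟨_, j, rfl⟩; exact h.zpow_zpow i j)
  refine ⟨f.range, ⟨(⟨a, Subgroup.mem_zpowers a⟩, 1), mul_one a⟩, ⟨(1, ⟨b, Subgroup.mem_zpowers b⟩), one_mul b⟩, ?_, ?_⟩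
  · rw [← Nat.card_zpowers, ← Nat.card_zpowers, ← Nat.card_prod]
    exact Subgroup.card_range_dvd f
  · rintro K ha hb _ ⟨z, rfl⟩
    exact mul_mem (Subgroup.zpowers_le.2 ha z.1.2) (Subgroup.zpowers_le.2 hb z.2.2)

theorem le_normalizer_of_card {G : Type*} [Group G] [Finite G] {V P : Subgroup G} {p k d : ℕ} (hp : p.Prime) (h : P ≤ V)
    (hP : Nat.card P = p ^ k) (hV : Nat.card V = p ^ k * d) (hd : ¬ p ∣ d) (h1 : ∀ i, i ∣ d → i % p = 1 % p → i = 1) :
    V ≤ Subgroup.normalizer (P : Set G) := by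
  have h0 : 0 < p ^ k := pow_pos hp.pos k
  obtain ⟨i, h2, h3⟩ := SylCount.syl_pow hp h hP (by rw [hV, pow_succ]; exact mt (Nat.mul_dvd_mul_iff_left h0).1 hd)
  obtain ⟨j, hj⟩ := hP ▸ Subgroup.card_dvd_of_le (le_inf h Subgroup.le_normalizer)
  obtain rfl := h1 i ⟨j, Nat.eq_of_mul_eq_mul_left h0 (by rw [← hV, ← h3, hj]; ring)⟩ h2
  exact inf_eq_left.1 (Subgroup.eq_of_le_of_card_ge inf_le_left (h3.symm.trans (one_mul _)).le)

end Cfsg.Agent.R3
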