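import Cfsg.Agent.R3.Mdl
import Cfsg.Agent.Known.RuTab

/-! The rank 3 action of the Rudvalis group on 4060 points (helper22): orbits of the stabiliser `H`, subgroups of
index 1755 (`h1`), invariant sets (`hl`, `h2'`, `h3`). -/

set_option autoImplicit false
set_option maxRecDepth 100000
set_option exponentiation.threshold 100000

namespace Cfsg.Agent.R3.Ru

open MulAction Equiv Cfsg.Agent.Comp Cfsg.Agent.Perm Cfsg.Agent.Known Spor.MdRu

abbrev X : Type := Fin (4059 + 1)

abbrev E : Enc X (4059 + 1) := encFin 4059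

theorem M : Mdl φ (4059 + 1) 7 145926144000 RuT.y RuT.act [1,1379,2476,4048,2697,0] := RuT.mdl

noncomputable scoped instance instAct : MulAction G X := M.mact

scoped instance instFaith : FaithfulSMul G X := M.faithful

scoped instance instFin : Finite G := M.finite

theorem par : Par (4059 + 1) 12 4095 := ⟨by decide, by decide⟩

abbrev pt (i : ℕ) : X := E.dec i

/-- the point stabiliser. -/
noncomputable abbrev H₀ : Subgroup G := stabilizer G (pt 0)

noncomputable abbrev cd (ws : List (List ℕ)) : List ℕ := cdW (4059 + 1) 12 RuT.act ws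

theorem H_eq : H₀ = H := stab_eq M stab (by decide)

theorem cardH₀ : Nat.card H₀ = 35942400 := H_eq ▸ cardH

theorem orbD : orbit H₀ (pt 3594) = St E A0 := by rw [H_eq]; exact orbit_eq_St M orb0 (by decide +kernel)

theorem orbG : orbit H₀ (pt 1) = St E A1 := by rw [H_eq]; exact orbit_eq_St M orb1 (by decide +kernel)

theorem ncD : (orbit H₀ (pt 3594)).ncard = 1755 := by rw [orbD, ncard_St]; decide +kernel

theorem ncG : (orbit H₀ (pt 1)).ncard = 2304 := by rw [orbG, ncard_St]; decide +kernel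

theorem cardJ : Nat.card ↥(H₀ ⊓ stabilizer G (pt 3594)) = 20480 := card_inf_stabilizer_of_orbit ncD (by decide) cardH₀

theorem cardL : Nat.card ↥(H₀ ⊓ stabilizer G (pt 1)) = 15600 := card_inf_stabilizer_of_orbit ncG (by decide) cardH₀

theorem codes2 {ws : List (List ℕ)} {b : ℕ} (h : allL ws (fun wd => allL [0, b] fun b =>
    band (Nat.blt b (4059 + 1)) (Nat.beq (actW RuT.act wd b) b)) = true) :
    CodesIn (PRep E 12 4095) (cd ws) (H₀ ⊓ stabilizer G (pt b)) :=
  codes_W M par fun wd hw => ⟨fix_W M h wd hw 0 (by simp), fix_W M h wd hw b (by simp)⟩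

def Jw : List (List ℕ) := [[0], [2], [4]]

def Lw : List (List ℕ) := [[5, 4, 2, 4, 5, 1], [0, 2, 5, 3, 0]]

def Qw : List (List ℕ) := [[3, 0], [2, 1], [4, 1], [2, 1, 2, 4, 1, 4, 0]]

theorem codesJ : CodesIn (PRep E 12 4095) (cd Jw) (H₀ ⊓ stabilizer G (pt 3594)) := codes2 (by decide +kernel)

theorem codesL : CodesIn (PRep E 12 4095) (cd Lw) (H₀ ⊓ stabilizer G (pt 1)) := codes2 (by decide +kernel)

theorem codesQ' : CodesIn (PRep E 12 4095) (cd Qw) (H₀ ⊓ stabilizer G (pt 3594)) := codes2 (by decide +kernel)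

/-- a Sylow 2-subgroup of the stabiliser. -/
noncomputable def Q : Subgroup G := Subgroup.closure (genSet (PRep E 12 4095) (cd Qw))

theorem Q_le : Q ≤ H₀ ⊓ stabilizer G (pt 3594) := codesQ'.closure_le fun _ _ _ => PRep.unique

theorem cardQ : Nat.card Q = 2 ^ 12 := by
  have h1 : Q ≤ invS G (St E (maskL [557, 3721])) :=
    (codes_W M par (inv_W M (by decide +kernel))).closure_le fun _ _ _ => PRep.unique
  have h2 := card_le_of_inv (K := Q) (Set.toFinite _) h1 (dec_mem_St (b := 557) (by decide +kernel))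
  have h3 := card_stab_le (a := 10) (b := 2048) (le_trans (nble.1 (by
    rw [← forceL_eq (cd Jw) fun L => Nat.ble 10 (orbLen (4059 + 1) 12 4095 L 557)]; decide +kernel))
    (orbLen_le codesJ (by decide : 557 < _))) (by decide) cardJ.le
  have h4 := Subgroup.card_le_of_le (inf_le_inf_right (stabilizer G (pt 557)) Q_le)
  have h5 : 4096 ≤ Nat.card Q := le_trans (nble.1 (by
    rw [← forceL_eq (cd Qw) fun L => Nat.ble 4096 (chainL (Comp.get 12 4095) (fun a => a) 4060 [41, 1] L)]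
    decide +kernel)) (chainP_le_card (B := [41, 1]) (by decide) codesQ'.closure 4060)
  rw [ncard_St, show popc _ _ = 2 by decide +kernel] at h2
  exact le_antisymm (h2.trans (Nat.mul_le_mul_left 2 (h4.trans h3))) h5

theorem h1 (K : Subgroup G) (hK : K ≤ H₀) (h : Nat.card K * 1755 = 35942400) : ∃ g ∈ H₀, K ≤ stabilizer G (g • pt 3594) := by
  have hc : Nat.card K = 20480 := by omega
  obtain ⟨g, hg, hQ⟩ := exists_conj_ge (p := 2) (k := 12) Nat.prime_two hK (Q_le.trans inf_le_left) cardH₀ (by decide)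
    (by rw [hc]; decide) (IsPGroup.of_card cardQ)
  refine fix_of_conj hg ⟨1, one_mem _, (one_smul G (pt 3594)).symm ▸ le_stab_of_ncard ?_⟩
  have hK' := map_conj_le hK hg
  rw [← card_map_conj g] at hc
  generalize K.map (MulAut.conj g).toMonoidHom = K' at hQ hK' hc
  obtain ⟨j, hj⟩ := cardQ ▸ Subgroup.card_dvd_of_le (le_inf hQ (Q_le.trans inf_le_right))
  have e := card_eq_ncard_orbit_mul K' (pt 3594)
  rw [hc, hj] at e
  refine ((Nat.dvd_prime Nat.prime_five).1 ⟨j, by linarith⟩).resolve_right fun h5 => ?_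
  obtain ⟨_, -, -, h6⟩ := enum_sound codesQ'.closure (reps := [35, 41, 176, 310, 557, 1074, 1941, 3594]) (U := A0) (bs := [5])
    (f := fun _ => false) (by decide +kernel) (orbD ▸ ((inv_orbit H₀ _).mono hK').orbit_sub (mem_orbit_self _))
    ((inv_orbit K' (pt 3594)).mono hQ) (by simp [h5])
  exact absurd h6 (by decide)

variable {Δ : SimpleGraph X} (hΔ : ∀ (s : G) u v, Δ.Adj (s • u) (s • v) ↔ Δ.Adj u v) (L : Loc H₀ Δ (pt 0) (pt 3594) (pt 1))

/-- neighbour masks. -/
noncomputable abbrev nb (z : ℕ × List ℕ) : ℕ := Spor.appW Spor.JRum3.nets z.2 A0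

include L

theorem nb0 : IsNb E Δ 0 A0 := fun x => (Set.ext_iff.1 orbD x).symm.trans L.mem_b

include hΔ

theorem isNb {l : List (ℕ × List ℕ)} (h : allL l (fun z => band (allL z.2 fun j => Nat.blt j 7)
    (tb (Spor.appW Spor.JRum3.nets z.2 (idA 0)) z.1)) = true) : ∀ z ∈ l, IsNb E Δ z.1 (nb z) :=
  isNb_appW rep M hΔ (nb0 L) (by decide) h

theorem nb1 : IsNb E Δ 1 (nb (1, [6])) := isNb hΔ L (l := [(1, [6])]) (by decide +kernel) _ (by simp)

theorem hl (T : Set X) (hT : T ⊆ orbit H₀ (pt 3594)) (_ : pt 3594 ∉ T) (hi : Inv (H₀ ⊓ stabilizer G (pt 3594)) T)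
    (h1 : T.ncard + 1 < 1755) (h2 : 2304 ∣ 1755 * (1755 - T.ncard - 1)) :
    T.ncard = 730 ∧ ∀ y ∈ orbit H₀ (pt 3594), y ∈ T ↔ Δ.Adj (pt 3594) y := by
  rw [orbD] at hT ⊢
  have := set_of_enum codesJ (isNb hΔ L (l := [(3594, [6, 2, 0, 4, 6, 5, 6])]) (by decide +kernel) _ List.mem_cons_self)
    (reps := [35, 41, 310, 557, 3594]) (bs := [218, 474, 730, 986, 1242, 1498]) (by decide +kernel) hT hi (by simp; omega)
  exact ⟨this.1.trans (by decide +kernel), this.2⟩

theorem h2' (T : Set X) (hT : T ⊆ orbit H₀ (pt 3594)) (hi : Inv (H₀ ⊓ stabilizer G (pt 1)) T) (h1 : T.ncard = 780) :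
    ∀ y ∈ orbit H₀ (pt 3594), y ∈ T ↔ Δ.Adj (pt 1) y := by
  rw [orbD] at hT ⊢
  exact (set_of_enum codesL (nb1 hΔ L) (reps := [35, 177]) (bs := [780]) (by decide +kernel) hT hi (by simp [h1])).2

theorem h3 (T : Set X) (hT : T ⊆ orbit H₀ (pt 1)) (_ : pt 1 ∉ T) (hi : Inv (H₀ ⊓ stabilizer G (pt 1)) T)
    (h1 : T.ncard = 1755 - 780) : ∀ y ∈ orbit H₀ (pt 1), y ∈ T ↔ Δ.Adj (pt 1) y := by
  rw [orbG] at hT ⊢
  exact (set_of_enum codesL (nb1 hΔ L) (reps := [1, 2, 4, 5, 6, 8]) (bs := [975]) (by decide +kernel) hT hi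
    (by simp [h1])).2

end Cfsg.Agent.R3.Ru
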