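import Cfsg.Agent.R3.RuA

/-! Subgroups of index 2304 in the point stabiliser of the Rudvalis group fix a point (`h2`) (helper22). -/

set_option autoImplicit false
set_option maxRecDepth 100000
set_option exponentiation.threshold 100000

namespace Cfsg.Agent.R3.Ru

open MulAction Equiv Cfsg.Agent.Comp Cfsg.Agent.Perm Cfsg.Agent.Known Spor.MdRu
open scoped Pointwise

def aw : List ℕ := [0, 2, 4, 5, 4, 3, 0]
def bw : List ℕ := [2, 5, 4, 2, 5, 3, 4, 1, 3, 0]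
def rw8 : List ℕ := [4, 0, 3, 5, 2, 4, 2, 5, 2, 4, 5]
def tw : List ℕ := [1, 2, 4, 1, 5, 2, 4, 1, 4, 0, 4]

theorem comm : Commute (W RuT.y aw) (W RuT.y bw) := by
  rw [Commute, SemiconjBy, ← W_append, ← W_append]; exact M.eq (by decide +kernel)

/-- a Sylow 5-subgroup. -/
noncomputable def P : Subgroup G := (exists_prod comm).choose

/-- its fixed points. -/
abbrev C : Set X := St E (maskL [1, 8, 534, 538])

theorem codesP : CodesIn (PRep E 12 4095) (cd [aw, bw]) P := codes_W M par (by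
  simpa using ⟨(exists_prod comm).choose_spec.1, (exists_prod comm).choose_spec.2.1⟩)

theorem P_fix : P ≤ fixM E G (maskL [0, 1, 8, 534, 538]) :=
  have := fixM_W M (ws := [aw, bw]) (bs := [0, 1, 8, 534, 538]) (by decide +kernel)
  (exists_prod comm).choose_spec.2.2.2 _ (this _ (by simp)) (this _ (by simp))

theorem P_le : P ≤ H₀ := fun _ hg => P_fix hg _ (by decide)

theorem P_C {g : G} (hg : g ∈ P) {x : X} (hx : x ∈ C) : g • x = x :=
  P_fix hg x ((testBit_maskL _).2 (List.mem_cons_of_mem _ ((testBit_maskL _).1 hx)))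

theorem P_dvd : Nat.card P ∣ 25 := by
  have : Nat.card P ∣ _ := (exists_prod comm).choose_spec.2.2.1
  rwa [orderOf_W M par aw (o := 5) (by decide) (by decide +kernel),
    orderOf_W M par bw (o := 5) (by decide) (by decide +kernel)] at this

theorem semi {x : X} (hx : x ∈ St E A1) (h : x ∉ C) : 25 ≤ (orbit P x).ncard := by
  have := allLt_iff.1 ((forceL_eq (cd [aw, bw]) fun L => allLt 4060 fun i => bor (not (tb A1 i))
    (bor (tb (maskL [1, 8, 534, 538]) i) (Nat.ble 25 (orbLen (4059 + 1) 12 4095 L i)))).symm.trans (by decide +kernel))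
    _ (E.enc_lt x)
  simp only [bor_eq, Bool.or_eq_true, tb_eq, Bool.not_eq_true', nble] at this
  rw [← E.dec_enc x]
  exact ((this.resolve_left (Bool.eq_false_iff.not.2 (not_not.2 hx))).resolve_left h).trans (orbLen_le codesP (E.enc_lt x))

theorem c1 : pt 1 ∈ C := dec_mem_St (by decide +kernel)

theorem c8 : pt 8 ∈ C := dec_mem_St (by decide +kernel)

theorem cardP : Nat.card P = 5 ^ 2 := (Nat.le_of_dvd (by decide) P_dvd).antisymm
  ((semi (x := pt 2) (dec_mem_St (by decide +kernel)) fun h => absurd ((testBit_maskL _).1 h) (by decide +kernel)).trans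
    (Nat.le_of_dvd Nat.card_pos (Dvd.intro _ (card_eq_ncard_orbit_mul P _).symm)))

theorem ncC : C.ncard = 4 := (ncard_St _).trans (by decide +kernel)

theorem cardV_le {c : X} (hc : c ∈ C) (h : c ≠ pt 1) : Nat.card ↥(H₀ ⊓ stabilizer G (pt 1) ⊓ stabilizer G c) ≤ 200 := by
  obtain ⟨b, hb, rfl⟩ := mem_St_maskL hc
  have := allL_iff.1 ((forceL_eq (cd Lw) fun L => allL [1, 8, 534, 538] fun i => bor (Nat.beq i 1)
    (band (Nat.blt i (4059 + 1)) (Nat.ble 78 (orbLen (4059 + 1) 12 4095 L i)))).symm.trans (by decide +kernel)) b hb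
  simp only [bor_eq, band_eq, Bool.or_eq_true, Bool.and_eq_true, nbeq, nble, nblt] at this
  have := this.resolve_left fun e => h (congrArg pt e)
  exact card_stab_le (a := 78) (this.2.trans (orbLen_le codesL this.1)) (by decide) cardL.le

theorem P_V : P ≤ H₀ ⊓ stabilizer G (pt 1) ⊓ stabilizer G (pt 8) := fun _ hg =>
  ⟨⟨P_le hg, P_C hg c1⟩, P_C hg c8⟩

theorem cardV : Nat.card ↥(H₀ ⊓ stabilizer G (pt 1) ⊓ stabilizer G (pt 8)) = 5 ^ 2 * 8 := by
  have h := fix_W M (ws := [rw8]) (bs := [0, 1, 8]) (by decide +kernel) _ List.mem_cons_self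
  have h1 := (H₀ ⊓ stabilizer G (pt 1) ⊓ stabilizer G (pt 8)).orderOf_dvd_natCard
    ⟨⟨h 0 (by simp), h 1 (by simp)⟩, h 8 (by simp)⟩
  rw [orderOf_W M par rw8 (o := 8) (by decide) (by decide +kernel)] at h1
  exact (cardV_le c8 (by decide +kernel)).antisymm (Nat.le_of_dvd Nat.card_pos
    (Nat.Coprime.mul_dvd_of_dvd_of_dvd (by decide) (cardP ▸ Subgroup.card_dvd_of_le P_V) h1))

theorem P_conj {K : Subgroup G} (hK : P ≤ K) {g : G} (hg : g ∈ H₀) (hC : g ∈ invS G C) :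
    P ≤ K.map (MulAut.conj g).toMonoidHom := fun x hx => by
  have e : ∀ c ∈ C, (g⁻¹ * x * g) • c = c := fun c hc => by rw [mul_smul, mul_smul, P_C hx (hC c hc), inv_smul_smul]
  obtain ⟨v, hv, h⟩ := exists_conj_mem_sylow (j := 2) (x := g⁻¹ * x * g) Nat.prime_five P_V cardP cardV (by decide)
    ⟨⟨H₀.mul_mem (H₀.mul_mem (H₀.inv_mem hg) (P_le hx)) hg, e _ c1⟩, e _ c8⟩ (by
      have : x ^ 5 ^ 2 = 1 := cardP ▸ congrArg Subtype.val (pow_card_eq_one' (x := (⟨x, hx⟩ : P)))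
      have h := conj_pow (i := 5 ^ 2) (a := g⁻¹) (b := x)
      rwa [this, inv_inv, mul_one, inv_mul_cancel] at h)
  exact ⟨_, hK ((Subgroup.mem_normalizer_iff.1 (le_normalizer_of_card Nat.prime_five P_V cardP cardV (by decide)
    (fun i hi => by have := Nat.le_of_dvd (by decide) hi; interval_cases i <;> simp_all) hv) _).2 h), by simp [mul_assoc]⟩

theorem sub_G {K : Subgroup G} (hK : K ≤ H₀) {c : X} (hc : c ∈ C) : orbit K c ⊆ St E A1 :=
  orbG ▸ ((inv_orbit H₀ _).mono hK).orbit_sub (orbG ▸ by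
    obtain ⟨b, hb, rfl⟩ := mem_St_maskL hc
    exact dec_mem_St (allL_iff.1 (by decide +kernel : allL [1, 8, 534, 538] (fun b => band (Nat.blt b (4059 + 1))
      (tb A1 b)) = true) b hb))

theorem split {K : Subgroup G} (hK : K ≤ H₀) (hP : P ≤ K) {c : X} (hc : c ∈ C) : 25 ∣ (orbit K c \ C).ncard :=
  dvd_ncard_of_orbits (K := P) _ _ (Set.toFinite _) rfl (fun g hg x hx => ⟨inv_orbit K c g (hP hg) x hx.1, fun e =>
    hx.2 (by rwa [← inv_smul_smul g x, P_C (inv_mem hg) e])⟩) fun x hx => dvd_of_eq ((semi (sub_G hK hc hx.1) hx.2).antisymm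
      (Nat.le_of_dvd (by decide) ((Dvd.intro _ (card_eq_ncard_orbit_mul P x).symm).trans P_dvd)))

theorem sub_C {K : Subgroup G} (hK : K ≤ H₀) (hP : P ≤ K) {c : X} (hc : c ∈ C) (h : (orbit K c).ncard < 25) :
    orbit K c ⊆ C := Set.sdiff_eq_empty.1 ((Set.ncard_eq_zero (Set.toFinite _)).1 (Nat.eq_zero_of_dvd_of_lt
      (split hK hP hc) ((Set.ncard_le_ncard Set.sdiff_subset).trans_lt h)))

variable {Δ : SimpleGraph X} (hΔ : ∀ (s : G) u v, Δ.Adj (s • u) (s • v) ↔ Δ.Adj u v) (L : Loc H₀ Δ (pt 0) (pt 3594) (pt 1))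

def tbl : List (ℕ × List ℕ) := [(8, [6, 0, 0]), (2, [6, 0]), (3, [6, 1]), (4, [6, 2]), (5, [6, 3]), (6, [6, 4]), (7, [6, 5]), (9, [6, 0, 2]), (10, [6, 0, 3]), (11, [6, 0, 4]), (12, [6, 0, 5]), (15, [6, 1, 3]), (17, [6, 1, 5]), (18, [6, 1, 6]), (22, [6, 2, 4]), (23, [6, 2, 5]), (24, [6, 2, 6]), (27, [6, 3, 4]), (29, [6, 3, 6]), (34, [6, 4, 5]), (36, [6, 5, 0]), (40, [6, 5, 4]), (46, [6, 0, 0, 6]), (50, [6, 0, 2, 4]), (59, [6, 0, 4, 3]), (64, [6, 0, 5, 2]), (66, [6, 0, 5, 4]), (72, [6, 0, 6, 4]), (73, [6, 0, 6, 5]), (75, [6, 1, 2, 4]), (83, [6, 1, 4, 3]), (88, [6, 1, 5, 4]), (98, [6, 2, 0, 4]), (100, [6, 2, 0, 6]), (108, [6, 2, 2, 6]), (150, [6, 4, 0, 2]), (155, [6, 4, 1, 2])]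

/-- the induced graph is not regular. -/
noncomputable def irr (ps ms : List ℕ) (s u : ℕ) : Bool :=
  force (Spor.popD 12 (Nat.land s u)) fun v => anyL ps fun p =>
    band (tb u p) (band (Nat.blt p (4059 + 1)) (not (Nat.beq (Spor.popD 12 (Nat.land (lk (fun _ => 0) p ps ms) u)) v)))

set_option maxHeartbeats 0 in
theorem chk : enumOK (4059 + 1) 12 4095 (cd [aw, bw, tw]) [1, 2, 3, 4, 5, 6, 7, 8, 9, 10, 11, 12, 15, 17, 18, 22, 23, 24, 27, 29, 34, 36, 40, 46, 50, 59, 64, 66, 72, 73, 75, 83, 88, 98, 100, 108, 150, 155] A1 [26, 52, 104]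
    (irr (mapL Prod.fst tbl) (mapL nb tbl) (nb (1, [6]))) = true := by
  have : (forceL (mapL Prod.fst tbl) fun ps => forceL (mapL nb tbl) fun ms => force (nb (1, [6])) fun s => enumOK (4059 + 1)
    12 4095 (cd [aw, bw, tw]) [1, 2, 3, 4, 5, 6, 7, 8, 9, 10, 11, 12, 15, 17, 18, 22, 23, 24, 27, 29, 34, 36, 40, 46, 50, 59, 64, 66, 72, 73, 75, 83, 88, 98, 100, 108, 150, 155] A1 [26, 52, 104] (irr ps ms s)) = true := by
    decide +kernel
  rwa [forceL_eq, forceL_eq, force_eq] at this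

include hΔ L

theorem big {K : Subgroup G} (hK : K ≤ H₀) (hP : P ≤ K) (ht : W RuT.y tw ∈ K) :
    (orbit K (pt 1)).ncard ∉ [26, 52, 104] := fun h => by
  obtain ⟨u, hu, e, h1⟩ := enum_sound (K := K) (codes_W M par (by
    simpa using ⟨hP (exists_prod comm).choose_spec.1, hP (exists_prod comm).choose_spec.2.1, ht⟩)) chk
    (sub_G hK c1) (inv_orbit K _) h
  simp only [irr, force_eq, anyL_iff, band_eq, Bool.and_eq_true, Bool.not_eq_true', nbeq_false, nblt, tb_eq] at h1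
  obtain ⟨p, h0, h2, h3, h4⟩ := h1
  obtain ⟨g, hg⟩ := e.ge (dec_mem_St (b := p) (by simp [h2, nblt.2 h3]))
  have h5 := (RelM.and ((nb1 hΔ L).map ((lk_mem (d := fun _ => 0) (isNb hΔ L (l := tbl) (by decide +kernel))).1 h0)
    (hΔ g) hg) (relM_of_inv hu (e ▸ inv_orbit K _) g.2))
  exact h4 ((popD_eq h5.lt' (by decide)).trans (h5.popc.symm.trans (popD_eq h5.lt (by decide)).symm))

theorem fix1 {K : Subgroup G} (hK : K ≤ H₀) (hc : Nat.card K = 15600) (hP : P ≤ K) (hf : (orbit K (pt 1) ∩ C).ncard ≠ 3) :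
    K ≤ stabilizer G (pt 1) := by
  refine le_stab_of_ncard (by_contra fun h => ?_)
  have e := card_eq_ncard_orbit_mul K (pt 1)
  have hY : P ≤ K ⊓ stabilizer G (pt 1) := le_inf hP fun _ hg => P_C hg c1
  obtain ⟨j, hj⟩ := cardP ▸ Subgroup.card_dvd_of_le hY
  have h1 := Set.ncard_inter_add_ncard_sdiff_eq_ncard (orbit K (pt 1)) C
  have h2 := split hK hP c1
  have h3 := ncC ▸ Set.ncard_le_ncard (Set.inter_subset_right (s := orbit K (pt 1)) (t := C))
  have h4 := (Set.ncard_pos (s := orbit K (pt 1) ∩ C)).2 ⟨_, mem_orbit_self _, c1⟩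
  rw [hc, hj] at e
  have h5 : (orbit K (pt 1)).ncard ∈ Nat.divisors 624 := Nat.mem_divisors.2 ⟨⟨j, by linarith⟩, by decide⟩
  have h6 := (by decide +kernel : ∀ d ∈ Nat.divisors 624, d % 25 = 1 ∨ d % 25 = 2 ∨ d % 25 = 4 →
    d = 1 ∨ (d = 2 ∨ d = 4) ∨ d ∈ [26, 52, 104]) _ h5 (by omega)
  rcases h6.resolve_left h with h6 | h6
  · obtain ⟨c, c2, c3⟩ := Set.exists_ne_of_one_lt_ncard (s := orbit K (pt 1)) (by omega) (pt 1)
    have a1 := card_le_of_inv (Set.toFinite _) ((inv_orbit K (pt 1)).mono (inf_le_left (b := stabilizer G (pt 1)))) c2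
    have a2 := (Subgroup.card_le_of_le (inf_le_inf_right (stabilizer G c) (inf_le_inf_right _ hK))).trans
      (cardV_le (sub_C hK hP c1 (by omega) c2) c3)
    have a3 := a1.trans (Nat.mul_le_mul_left _ a2)
    rcases h6 with h6 | h6 <;> rw [h6] at e a3 <;> omega
  have h7 : j ≤ 24 ∧ 3 ∣ j := by
    simp only [List.mem_cons, List.not_mem_nil, or_false] at h6
    rcases h6 with h6 | h6 | h6 <;> rw [h6] at e <;> omega
  have h8 : K ⊓ stabilizer G (pt 1) ≤ invS G C := fun g hg c hc => by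
    refine sub_C (inf_le_left.trans hK) hY hc ?_ ⟨⟨g, hg⟩, rfl⟩
    have a1 := card_eq_ncard_orbit_mul (K ⊓ stabilizer G (pt 1)) c
    obtain ⟨i, hi⟩ := cardP ▸ Subgroup.card_dvd_of_le (le_inf hY fun _ hg => P_C hg hc : P ≤ _ ⊓ stabilizer G c)
    have a2 : 0 < i := Nat.pos_of_ne_zero fun e => Nat.card_pos.ne' (hi.trans (by rw [e]; rfl))
    rw [hj, hi] at a1
    nlinarith [h7.1]
  have ht := fix_W M (ws := [tw]) (bs := [0, 1]) (by decide +kernel) _ List.mem_cons_self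
  obtain ⟨g, hg, h9⟩ := exists_conj_ge (H := H₀ ⊓ stabilizer G (pt 1) ⊓ invS G C) (p := 3) (k := 1) Nat.prime_three
    (le_inf (inf_le_inf_right _ hK) h8) (Subgroup.zpowers_le.2 ⟨⟨ht 0 (by simp), ht 1 (by simp)⟩,
      inv_W M (ws := [tw]) (by decide +kernel) _ List.mem_cons_self⟩) rfl
    (fun h => absurd (h.trans ((Subgroup.card_dvd_of_le inf_le_left).trans cardL.dvd)) (by decide))
    (hj ▸ (pow_one 3).symm ▸ h7.2.mul_left _) (isPGroup_zpowers (j := 1) (orderOf_dvd_iff_pow_eq_one.1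
      (orderOf_W M par tw (o := 3) (by decide) (by decide +kernel)).dvd))
  refine big hΔ L (map_conj_le hK hg.1.1) (P_conj hP hg.1.1 hg.2)
    (Subgroup.map_mono inf_le_left (h9 (Subgroup.mem_zpowers _))) ?_
  rwa [← show g • pt 1 = pt 1 from hg.1.2, orbit_map_conj, Set.ncard_smul_set]

theorem h2 (K : Subgroup G) (hK : K ≤ H₀) (h : Nat.card K * 2304 = 35942400) : ∃ g ∈ H₀, K ≤ stabilizer G (g • pt 1) := by
  have hc : Nat.card K = 15600 := by omega
  obtain ⟨g, hg, hP⟩ := exists_conj_ge (p := 5) (k := 2) Nat.prime_five hK P_le cardH₀ (by decide)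
    (by rw [hc]; decide) (IsPGroup.of_card cardP)
  refine fix_of_conj hg ?_
  have hK' := map_conj_le hK hg
  rw [← card_map_conj g] at hc
  generalize K.map (MulAut.conj g).toMonoidHom = K at hP hK' hc
  by_cases hf : (orbit K (pt 1) ∩ C).ncard = 3
  swap
  · exact ⟨1, one_mem _, (one_smul G (pt 1)).symm ▸ fix1 hΔ L hK' hc hP hf⟩
  have h1 := Set.ncard_sdiff (Set.inter_subset_right (s := orbit K (pt 1)) (t := C))
  rw [hf, ncC] at h1
  obtain ⟨c, h2⟩ := Set.ncard_eq_one.1 h1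
  obtain ⟨c2, c3⟩ := h2.ge rfl
  obtain ⟨n, n1, n2, rfl⟩ : ∃ n ∈ H₀, n ∈ invS G C ∧ n • pt 1 = c := by
    obtain ⟨b, hb, rfl⟩ := mem_St_maskL c2
    obtain ⟨wd, h1, h2⟩ := anyL_iff.1 (allL_iff.1 (by decide +kernel : allL [1, 8, 534, 538] (fun b =>
      anyL [[], [0, 0], [2, 5, 1, 2], [2, 5, 0, 2]] fun wd => band (Nat.blt 1 (4059 + 1)) (Nat.beq (actW RuT.act wd 1) b)) = true) b hb)
    exact ⟨_, fix_W M (bs := [0]) (by decide +kernel) wd h1 0 (by simp), inv_W M (by decide +kernel) wd h1, smul_dec M h2⟩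
  refine fix_of_conj (inv_mem n1) ⟨1, one_mem _, (one_smul G (pt 1)).symm ▸ fix1 hΔ L (map_conj_le hK' (inv_mem n1))
    ((card_map_conj _ _).trans hc) (P_conj hP (inv_mem n1) (inv_mem n2)) (ne_of_lt (lt_of_le_of_lt ?_ (by decide : 1 < 3)))⟩
  refine le_of_le_of_eq (Set.ncard_le_ncard_of_injOn (n • ·) ?_ (MulAction.injective n).injOn) h1
  rintro _ ⟨⟨⟨_, k, hk, rfl⟩, rfl⟩, h3⟩
  refine ⟨n2 _ h3, fun h4 => c3 ⟨?_, c2⟩⟩
  have := inv_orbit K _ _ (inv_mem hk) _ h4.1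
  change k⁻¹ • n • (n⁻¹ * k * n⁻¹⁻¹) • pt 1 ∈ _ at this
  rwa [inv_inv, mul_smul, mul_smul, smul_inv_smul, inv_smul_smul] at this

end Cfsg.Agent.R3.Ru
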