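import Cfsg.Agent.R3.Aut
import Cfsg.Agent.Leech.Iso

/-! Rank 3 recognition with outer automorphisms of the stabiliser (helper22): `orbit_eq_orbM`, `card_aut_le`, `pop5`, `twisted`,
`compat`, `iso_of_lifts`. -/

set_option autoImplicit false

namespace Cfsg.Agent.R3

open MulAction Equiv Cfsg.Agent.Comp Cfsg.Agent.Perm Cfsg.Agent.Known

/-- the number of bits modulo five. -/
def pop5 (m x : ℕ) : ℕ := Nat.mod (Nat.add (Nat.add (Nat.land x m) (Nat.mul 3 (Nat.land x (Nat.mul 2 m))))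
  (Nat.add (Nat.mul 4 (Nat.land x (Nat.mul 4 m))) (Nat.mul 2 (Nat.land x (Nat.mul 8 m))))) 5

theorem pop5_eq {m n x : ℕ} (hx : x < 2 ^ n) (h : ∀ i < n, (2 ^ i * (m.testBit i).toNat + 3 * (2 ^ i * ((2 * m).testBit i).toNat) +
    (4 * (2 ^ i * ((4 * m).testBit i).toNat) + 2 * (2 ^ i * ((8 * m).testBit i).toNat))) % 5 = 1) : pop5 m x = popc n x % 5 := by
  have key : ∀ k ≤ n, ((x &&& m) % 2 ^ k + 3 * ((x &&& 2 * m) % 2 ^ k) + (4 * ((x &&& 4 * m) % 2 ^ k) +
      2 * ((x &&& 8 * m) % 2 ^ k))) % 5 = popc k x % 5 := fun k => by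
    induction k with
    | zero => simp [Nat.mod_one, popc]
    | succ k ih =>
      intro hk
      have ih := ih (by omega)
      have h := h k hk
      simp only [Nat.mod_pow_succ, popc_succ, ← Nat.toNat_testBit, Nat.testBit_and]
      cases x.testBit k <;> simp only [Bool.false_and, Bool.true_and, Bool.toNat_false, Bool.toNat_true, mul_zero] <;> omega
  have := key n le_rfl
  simp only [Nat.mod_eq_of_lt (Nat.and_le_left.trans_lt hx)] at this
  exact this

section enc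

variable {α : Type*} {n : ℕ} {E : Enc α n} {w m : ℕ} {G : Type*} [Group G] [MulAction G α] {K : Subgroup G} {L : List ℕ}

theorem orbit_eq_orbM (hK : CodesIn (PRep E w m) L K) (hcl : Subgroup.closure (genSet (PRep E w m) L) = K) {b s : ℕ}
    (h : forceL L (fun L => band (band (band (Nat.blt b n) (tb s b)) (Nat.beq (orbM n w m L b) s))
      (allL L fun c => allLt n fun p => bor (not (tb s p)) (tb s (get w m c p)))) = true) : orbit K (E.dec b) = St E s := by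
  have := E.finite
  rw [forceL_eq, band_eq, Bool.and_eq_true, band_eq, Bool.and_eq_true] at h
  have h1 := h.1.1
  rw [band_eq, Bool.and_eq_true, nblt] at h1
  refine (Inv.orbit_sub (show K ≤ invS G (St E s) from hcl ▸ (Subgroup.closure_le _).2 fun g ⟨c, hc, hr⟩ x hx => ?_)
    (dec_mem_St h.1.1)).antisymm (nbeq.1 h.1.2 ▸ orbM_sub hK h1.1)
  have := allLt_iff.1 (allL_iff.1 h.2 c hc) _ (E.enc_lt x)
  rw [hr, bor_eq, tb_eq, tb_eq, show s.testBit (E.enc x) = true from hx] at this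
  exact this

theorem card_aut_le {Δ : SimpleGraph α} {F : ℕ → ℕ} (hF : ∀ p < n, IsNb E Δ p (F p)) (t : ℕ) (B : List ℕ) (r : ℕ)
    (lev : List (ℕ × List InM)) {N : ℕ} (hN : N ≠ 0) (h : force t (fun t => force (Nat.pred (Nat.pow 2 n)) fun f =>
      band (band (allLt n fun p => Nat.beq (get n f t p) (F p)) (allL B fun b => Nat.blt b n))
        (band (forceL (mapL (get n f t) B) fun ms => allLt n fun p => Nat.beq (cellM f ms p) (idA p))
          (Nat.beq (simM n (famA [idA, get n f t]) f B r lev fun _ => f) N))) = true) : Nat.card (autS Δ) ≤ N := by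
  simp only [force_eq, forceL_eq, band_eq, Bool.and_eq_true, allL_iff, nblt] at h
  have hM : ∀ p < n, IsNb E Δ p (get n (Nat.pow 2 n).pred t p) := fun p hp => nbeq.1 (allLt_iff.1 h.1.1 p hp) ▸ hF p hp
  refine Subgroup.card_top.symm.trans_le (card_le_simM (E := E) (G := autS Δ) (K := ⊤) (fun g hg => Subtype.ext (Equiv.ext
    (fix_of_cellM (E := E) (g := g) (fun a ha => ?_) h.2.1))) (fun g _ => .cons gmap_idA (.cons (fun x =>
      (hM _ (E.enc_lt x)).map (hM _ (E.enc_lt _)) g.2 (by rw [E.dec_enc, E.dec_enc])) gmap_nil)) r lev hN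
    ((force_eq _ _).trans h.2.2))
  obtain ⟨b, hb, rfl⟩ := List.mem_map.1 (mapL_eq _ _ ▸ ha)
  exact (hM b (h.1.2 b hb)).map (hM b (h.1.2 b hb)) g.2 (hg _ ((E.enc_dec b (h.1.2 b hb)).symm ▸ hb))

end enc

/-- the third hypothesis of `equiv_of_loc` from an automorphism of the stabiliser. -/
theorem twisted {S X : Type*} [Group S] [MulAction S X] [Finite X] {H K : Subgroup S} {x₁ x₂ : X} {Δ : SimpleGraph X}
    (hΔ : ∀ (g : H) x y, Δ.Adj (g • x) (g • y) ↔ Δ.Adj x y) (α : H ≃* H) (f : X → X)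
    (hf : ∀ g : H, ∀ x ∈ orbit H x₁, f (g • x) = α g • f x) (u : H) (hu : f (u • x₁) = x₁)
    (sep : ∀ y ∈ orbit H x₂, (∀ x ∈ orbit H x₁, Δ.Adj y x ↔ Δ.Adj x₂ x) → y = x₂) (v : H) {T : Set X} (hK : Inv K T)
    (hT : ∀ x ∈ orbit H x₁, x ∈ T ↔ Δ.Adj x₂ (f (v • x))) :
    ∃ (α : H ≃* H) (u : H), (∀ g : H, g.1 ∈ K → α g • x₂ = x₂) ∧ (∀ g : H, g • u • x₁ = u • x₁ ↔ α g • x₁ = x₁) ∧
      ∀ g : H, g • u • x₁ ∈ T ↔ Δ.Adj x₂ (α g • x₁) := by
  have o : ∀ (g : H) x, x ∈ orbit H x₁ → g • x ∈ orbit H x₁ := fun g x hx => inv_orbit H x₁ g g.2 x hx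
  have o1 : ∀ g : H, g • x₁ ∈ orbit H x₁ := mem_orbit x₁
  have e : ∀ g : H, f (g • u • x₁) = α g • x₁ := fun g => by rw [hf g _ (o1 u), hu]
  have hi : Set.InjOn f (orbit H x₁) := ((Set.toFinite _).surjOn_iff_bijOn_of_mapsTo (by
    rintro _ ⟨g, rfl⟩
    have := e (g * u⁻¹)
    rw [mul_smul, inv_smul_smul] at this
    exact this ▸ o1 _)).1 (by rintro _ ⟨g, rfl⟩; exact ⟨_, o _ _ (o1 u), (e (α.symm g)).trans (by simp)⟩) |>.injOn
  have e' : ∀ g : H, v • g • (v⁻¹ * u) • x₁ = MulAut.conj v g • u • x₁ := fun g => by simp [mul_smul]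
  refine ⟨(MulAut.conj v).trans α, v⁻¹ * u, fun g hg => sep _ ⟨_, rfl⟩ ?_, fun g => ?_, fun g => by
    rw [hT _ (o _ _ (o1 _)), e', e]; rfl⟩
  · rintro _ ⟨h, rfl⟩
    obtain ⟨h, rfl⟩ := ((MulAut.conj v).trans α).surjective h
    have a1 := hT _ (o h _ (o1 (v⁻¹ * u)))
    have a2 := hT _ (o (g⁻¹ * h) _ (o1 (v⁻¹ * u)))
    rw [e', e] at a1 a2
    rw [← hΔ ((MulAut.conj v).trans α g)⁻¹, inv_smul_smul, ← mul_smul, ← map_inv, ← map_mul]
    rw [mul_smul] at a2
    exact a2.symm.trans (Iff.trans ⟨fun h' => smul_inv_smul g (h • (v⁻¹ * u) • x₁) ▸ hK _ hg _ h', hK _ (inv_mem hg) _⟩ a1)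
  · rw [← smul_left_cancel_iff v, e', mul_smul, smul_inv_smul, ← hi.eq_iff (o _ _ (o1 _)) (o1 _), e, hu]
    rfl

theorem compat {P H X : Type*} [Group P] [Group H] [MulAction H X] {g : ℕ → P} {nl : ℕ}
    (ht : Spor.genL g (List.range nl) = ⊤) (ψ ψ' : P ≃* H) {U : Set X} (hU : ∀ h : H, ∀ x ∈ U, h • x ∈ U) {f : X → X}
    (h : ∀ i < nl, ∀ x ∈ U, f (ψ (g i) • x) = ψ' (g i) • f x) (a : H) : ∀ x ∈ U, f (a • x) = (ψ.symm.trans ψ') a • f x := by
  obtain ⟨a, rfl⟩ := ψ.surjective a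
  rw [MulEquiv.trans_apply, ψ.symm_apply_apply]
  refine Subgroup.closure_induction (p := fun a _ => ∀ x ∈ U, f (ψ a • x) = ψ' a • f x) ?_ (by simp)
    (fun a b _ _ ha hb x hx => ?_) (fun a _ ha x hx => ?_) (ht.ge (Subgroup.mem_top a))
  · rintro _ ⟨i, hi, rfl⟩
    exact h i (List.mem_range.1 hi)
  · rw [map_mul, map_mul, mul_smul, mul_smul, ha _ (hU _ x hx), hb x hx]
  · rw [map_inv, map_inv, eq_inv_smul_iff, ← ha _ (hU _ x hx), smul_inv_smul]

theorem iso_of_lifts {S : Type} [Group S] {φ : S →* Perm ℕ} {N k n : ℕ} {y : ℕ → S} {act : ℕ → ℕ → ℕ} {B : List ℕ}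
    (M : Mdl φ (N + 1) k n y act B) {P : Type} [Group P] [IsSimpleGroup P] {g : ℕ → P} {nl : ℕ} {rels : List (List ℕ)}
    (hl : Lifts g (nl + 1) rels) {b : ℕ} (hc : letI := M.mact; Nat.card (stabilizer S ((encFin N).dec b)) = Nat.card P)
    {ws : List (List ℕ)} (h : band (allL ([] :: ws) fun wd => band (Nat.blt b (N + 1)) (Nat.beq (actW act wd b) b))
      (band (allL rels fun r => eqB (fun i => actW act (nthL [] ws i)) B r.reverse [])
        (anyLt (N + 1) fun p => not (Nat.beq (actW act (nthL [] ws 0) p) p))) = true) :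
    letI := M.mact; ∃ ψ : P ≃* stabilizer S ((encFin N).dec b), ∀ i < nl + 1, (ψ (g i)).1 = W y (nthL [] ws i) := by
  let := M.mact
  have := M.finite
  simp only [band_eq (allL _ _), Bool.and_eq_true, allL_iff, anyLt_iff, Bool.not_eq_true', nbeq_false] at h
  obtain ⟨h1, h2, p, hp, h3⟩ := h
  have hw : ∀ i, W y (nthL [] ws i) ∈ stabilizer S ((encFin N).dec b) := fun i =>
    smul_dec M (h1 _ (List.mem_cons.2 (nthL_mem_or _ _ _).symm))
  obtain ⟨ψ, hψ⟩ := hl _ (fun i => (⟨_, hw i⟩ : stabilizer S _)) fun r hr => Subtype.ext (by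
    have := Spor.map_ev (stabilizer S ((encFin N).dec b)).subtype (fun i => ⟨_, hw i⟩) r
    refine this.trans ?_
    rw [Leech.ev_rev]
    let := actOf φ
    exact eq_of_eqB (isCanon_PtN _).func (M.hy.words ws) M.base (h2 r hr))
  refine ⟨MulEquiv.ofBijective ψ ((Spor.injective_of_simple ψ (x := g 0) fun t => h3 ?_).bijective_of_nat_card_le hc.le),
    fun i hi => congrArg Subtype.val (hψ i hi)⟩
  have := M.fnW (nthL [] ws 0) ⟨p, hp⟩
  rw [show W y (nthL [] ws 0) = 1 from congrArg Subtype.val ((hψ 0 nl.succ_pos).symm.trans t), one_smul] at this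
  exact this

end Cfsg.Agent.R3
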